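import Mathlib
import Cfsg.Prelude.Def_MonsterType
import Cfsg.Agent.Lib.Helper90.Basic
import Cfsg.Agent.Lib.Helper90.Extraspecial
import Cfsg.Agent.Lib.Helper90.Coprime

set_option autoImplicit false

namespace Cfsg.Agent.Lib.Helper90

variable {G : Type*} [Group G]

/-- configuration of a large extraspecial subgroup `Q` with centre `⟨z⟩` and a subgroup `L` with trivial
centre all of whose conjugates are equal to `L` or commute with `L`; `z = z₁ z'` with `z₁ ∈ L`,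
`z' ∈ C_G(L)`. -/
structure CompData (Q L : Subgroup G) (z z₁ z' : G) : Prop where
  es : ES Q z
  cent : ∀ x, (∀ q ∈ Q, q * x = x * q) → x = 1 ∨ x = z
  norm : ∀ c, c * z = z * c → ∀ q ∈ Q, c * q * c⁻¹ ∈ Q
  triv : ∀ x ∈ L, (∀ l ∈ L, l * x = x * l) → x = 1
  z₁_mem : z₁ ∈ L
  z'_mem : z' ∈ Subgroup.centralizer (L : Set G)
  z_eq : z = z₁ * z'
  z₁_ne : z₁ ≠ 1
  conj : ∀ g, g ∈ Subgroup.normalizer (L : Set G) ∨
    ∀ l ∈ L, g * l * g⁻¹ ∈ Subgroup.centralizer (L : Set G)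

namespace CompData

variable {Q L : Subgroup G} {z z₁ z' : G}

theorem comm (_h : CompData Q L z z₁ z') {l b : G} (hl : l ∈ L)
    (hb : b ∈ Subgroup.centralizer (L : Set G)) : l * b = b * l :=
  Subgroup.mem_centralizer_iff.mp hb l hl

theorem uniq (h : CompData Q L z z₁ z') {a a' b b' : G} (ha : a ∈ L) (ha' : a' ∈ L)
    (hb : b ∈ Subgroup.centralizer (L : Set G)) (hb' : b' ∈ Subgroup.centralizer (L : Set G))
    (e : a * b = a' * b') : a = a' := by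
  have h1 : a'⁻¹ * a = b' * b⁻¹ := by
    calc a'⁻¹ * a = a'⁻¹ * (a * b) * b⁻¹ := by group
      _ = b' * b⁻¹ := by rw [e]; group
  have h2 : a'⁻¹ * a = 1 := by
    apply h.triv _ (L.mul_mem (L.inv_mem ha') ha)
    rw [h1]
    intro l hl
    exact h.comm hl (Subgroup.mul_mem _ hb' (Subgroup.inv_mem _ hb))
  calc a = a' * (a'⁻¹ * a) := by group
    _ = a' := by rw [h2, mul_one]

theorem z₁_z' (h : CompData Q L z z₁ z') : z₁ * z' = z' * z₁ := h.comm h.z₁_mem h.z'_mem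

theorem z₁_sq (h : CompData Q L z z₁ z') : z₁ * z₁ = 1 := by
  have h1 : (z₁ * z₁) * (z' * z') = 1 * 1 := by
    calc (z₁ * z₁) * (z' * z') = z₁ * (z₁ * z') * z' := by group
      _ = z₁ * (z' * z₁) * z' := by rw [h.z₁_z']
      _ = (z₁ * z') * (z₁ * z') := by group
      _ = 1 * 1 := by rw [← h.z_eq, h.es.z_sq, one_mul]
  exact h.uniq (L.mul_mem h.z₁_mem h.z₁_mem) L.one_mem
    (Subgroup.mul_mem _ h.z'_mem h.z'_mem) (Subgroup.one_mem _) h1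

theorem z₁_inv (h : CompData Q L z z₁ z') : z₁⁻¹ = z₁ := inv_eq_of_mul_eq_one_right h.z₁_sq

theorem z_z₁ (h : CompData Q L z z₁ z') : z * z₁ = z₁ * z := by
  rw [h.z_eq]
  calc z₁ * z' * z₁ = z₁ * (z' * z₁) := by group
    _ = z₁ * (z₁ * z') := by rw [h.z₁_z']

/-- for elements of `L`: commuting with `z` is commuting with `z₁`. -/
theorem comm_z_iff (h : CompData Q L z z₁ z') {y : G} (hy : y ∈ L) :
    y * z = z * y ↔ y * z₁ = z₁ * y := by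
  have hyz' : y * z' = z' * y := h.comm hy h.z'_mem
  constructor
  · intro e
    have h1 : (y * z₁ * y⁻¹) * z' = z₁ * z' := by
      calc (y * z₁ * y⁻¹) * z' = y * z₁ * (y⁻¹ * (z' * y)) * y⁻¹ := by group
        _ = (y * (z₁ * z')) * y⁻¹ := by rw [← hyz']; group
        _ = z₁ * z' := by rw [← h.z_eq, e]; group
    have h2 := h.uniq (L.mul_mem (L.mul_mem hy h.z₁_mem) (L.inv_mem hy)) h.z₁_mem h.z'_mem
      h.z'_mem h1
    calc y * z₁ = (y * z₁ * y⁻¹) * y := by group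
      _ = z₁ * y := by rw [h2]
  · intro e
    rw [h.z_eq]
    calc y * (z₁ * z') = (y * z₁) * z' := by group
      _ = z₁ * (y * z') := by rw [e]; group
      _ = z₁ * z' * y := by rw [hyz']; group

theorem z_mem_normalizer (h : CompData Q L z z₁ z') : z ∈ Subgroup.normalizer (L : Set G) := by
  rw [h.z_eq]
  exact Subgroup.mul_mem _ (Subgroup.le_normalizer h.z₁_mem)
    (Subgroup.centralizer_le_normalizer _ h.z'_mem)

/-- conjugation by an element of the normaliser preserves the centraliser. -/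
theorem conj_mem_centralizer {L : Subgroup G} {q b : G}
    (hq : q ∈ Subgroup.normalizer (L : Set G))
    (hb : b ∈ Subgroup.centralizer (L : Set G)) :
    q * b * q⁻¹ ∈ Subgroup.centralizer (L : Set G) := by
  rw [Subgroup.mem_centralizer_iff]
  intro l hl
  have h1 : q⁻¹ * l * q ∈ L := by
    rw [Subgroup.mem_normalizer_iff.mp hq]
    have e : q * (q⁻¹ * l * q) * q⁻¹ = l := by group
    rw [e]; exact hl
  have h2 := Subgroup.mem_centralizer_iff.mp hb _ h1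
  calc l * (q * b * q⁻¹) = q * ((q⁻¹ * l * q) * b) * q⁻¹ := by group
    _ = q * (b * (q⁻¹ * l * q)) * q⁻¹ := by rw [h2]
    _ = q * b * q⁻¹ * l := by group

theorem fix_z₁ (h : CompData Q L z z₁ z') {q : G} (hqz : q * z = z * q)
    (hq : q ∈ Subgroup.normalizer (L : Set G)) : q * z₁ * q⁻¹ = z₁ := by
  have h1 : (q * z₁ * q⁻¹) * (q * z' * q⁻¹) = z₁ * z' := by
    calc (q * z₁ * q⁻¹) * (q * z' * q⁻¹) = q * (z₁ * z') * q⁻¹ := by group
      _ = z₁ * z' := by rw [← h.z_eq, hqz]; group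
  exact h.uniq ((Subgroup.mem_normalizer_iff.mp hq _).mp h.z₁_mem) h.z₁_mem
    (conj_mem_centralizer hq h.z'_mem) h.z'_mem h1

/-- if `Q` normalises `L` then `z ∈ L`. -/
theorem z_mem_of_normalizes (h : CompData Q L z z₁ z')
    (hQ : Q ≤ Subgroup.normalizer (L : Set G)) : z = z₁ := by
  have h1 : ∀ q ∈ Q, q * z₁ = z₁ * q := by
    intro q hq
    have := h.fix_z₁ (h.es.z_comm q hq) (hQ hq)
    calc q * z₁ = (q * z₁ * q⁻¹) * q := by group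
      _ = z₁ * q := by rw [this]
  rcases h.cent z₁ h1 with h2 | h2
  · exact absurd h2 h.z₁_ne
  · exact h2.symm

/-- the element `c(y) = [u, y⁻¹]` lies in `Q`. -/
theorem c_mem (h : CompData Q L z z₁ z') {u y : G} (hu : u ∈ Q) (hy : y ∈ L)
    (hyz : y * z₁ = z₁ * y) : u * y⁻¹ * u⁻¹ * y ∈ Q := by
  have h1 : y * z = z * y := (h.comm_z_iff hy).mpr hyz
  have h2 : y⁻¹ * z = z * y⁻¹ := by
    calc y⁻¹ * z = y⁻¹ * (z * y) * y⁻¹ := by group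
      _ = y⁻¹ * (y * z) * y⁻¹ := by rw [h1]
      _ = z * y⁻¹ := by group
  have h3 := h.norm y⁻¹ h2 u⁻¹ (Q.inv_mem hu)
  rw [inv_inv] at h3
  have e : u * y⁻¹ * u⁻¹ * y = u * (y⁻¹ * u⁻¹ * y) := by group
  rw [e]
  exact Q.mul_mem hu h3

/-- `c(y) = y * b₀` with `b₀ ∈ C_G(L)`. -/
theorem c_eq (h : CompData Q L z z₁ z') {u y : G}
    (hu : ∀ l ∈ L, u * l * u⁻¹ ∈ Subgroup.centralizer (L : Set G)) (hy : y ∈ L) :
    u * y⁻¹ * u⁻¹ * y = y * (u * y⁻¹ * u⁻¹) :=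
  (h.comm hy (hu _ (L.inv_mem hy))).symm

theorem normalizer_or (h : CompData Q L z z₁ z') {u y v : G} (hu : u ∈ Q)
    (hun : u ∉ Subgroup.normalizer (L : Set G)) (hy : y ∈ L) (hyz : y * z₁ = z₁ * y)
    (hy1 : y ≠ 1) (hyz1 : y ≠ z₁) (hv : v ∈ Q) :
    v ∈ Subgroup.normalizer (L : Set G) ∨ v * u ∈ Subgroup.normalizer (L : Set G) := by
  by_contra hcon
  push Not at hcon
  have hu' := (h.conj u).resolve_left hun
  have hv1 := (h.conj v).resolve_left hcon.1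
  have hv2 := (h.conj (v * u)).resolve_left hcon.2
  have hc := h.c_mem hu hy hyz
  have hce := h.c_eq hu' hy
  have hb : v * (u * y⁻¹ * u⁻¹ * y) * v⁻¹ ∈ Subgroup.centralizer (L : Set G) := by
    have e : v * (u * y⁻¹ * u⁻¹ * y) * v⁻¹ = ((v * u) * y⁻¹ * (v * u)⁻¹) * (v * y * v⁻¹) := by
      group
    rw [e]
    exact Subgroup.mul_mem _ (hv2 _ (L.inv_mem hy)) (hv1 _ hy)
  rcases h.es.conj_eq hv hc with h1 | h1
  · apply hy1
    have h2 : 1 * (v * (u * y⁻¹ * u⁻¹ * y) * v⁻¹) = y * (u * y⁻¹ * u⁻¹) := by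
      rw [one_mul, h1, hce]
    exact (h.uniq L.one_mem hy hb (hu' _ (L.inv_mem hy)) h2).symm
  · apply hyz1
    have h2 : 1 * (v * (u * y⁻¹ * u⁻¹ * y) * v⁻¹) = (z₁ * y) * (z' * (u * y⁻¹ * u⁻¹)) := by
      rw [one_mul, h1, hce, h.z_eq]
      calc z₁ * z' * (y * (u * y⁻¹ * u⁻¹)) = z₁ * (z' * y) * (u * y⁻¹ * u⁻¹) := by group
        _ = z₁ * y * (z' * (u * y⁻¹ * u⁻¹)) := by rw [← h.comm hy h.z'_mem]; group
    have h3 := h.uniq L.one_mem (L.mul_mem h.z₁_mem hy) hb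
      (Subgroup.mul_mem _ h.z'_mem (hu' _ (L.inv_mem hy))) h2
    calc y = z₁⁻¹ * (z₁ * y) := by group
      _ = z₁ := by rw [← h3, mul_one, h.z₁_inv]

/-- squares in `C_L(z₁)`. -/
theorem sq_mem (h : CompData Q L z z₁ z') {u y : G} (hu : u ∈ Q)
    (hun : u ∉ Subgroup.normalizer (L : Set G)) (hy : y ∈ L) (hyz : y * z₁ = z₁ * y) :
    y * y = 1 ∨ y * y = z₁ := by
  have hu' := (h.conj u).resolve_left hun
  have hc := h.c_mem hu hy hyz
  have hce := h.c_eq hu' hy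
  have hb := hu' _ (L.inv_mem hy)
  have e : (u * y⁻¹ * u⁻¹ * y) * (u * y⁻¹ * u⁻¹ * y) =
      (y * y) * ((u * y⁻¹ * u⁻¹) * (u * y⁻¹ * u⁻¹)) := by
    rw [hce]
    calc y * (u * y⁻¹ * u⁻¹) * (y * (u * y⁻¹ * u⁻¹))
        = y * ((u * y⁻¹ * u⁻¹) * y) * (u * y⁻¹ * u⁻¹) := by group
      _ = y * (y * (u * y⁻¹ * u⁻¹)) * (u * y⁻¹ * u⁻¹) := by rw [h.comm hy hb]
      _ = _ := by group
  rcases h.es.sq _ hc with h1 | h1
  · left
    rw [e] at h1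
    exact h.uniq (L.mul_mem hy hy) L.one_mem (Subgroup.mul_mem _ hb hb) (Subgroup.one_mem _)
      (by rw [h1, one_mul])
  · right
    rw [e, h.z_eq] at h1
    exact h.uniq (L.mul_mem hy hy) h.z₁_mem (Subgroup.mul_mem _ hb hb) h.z'_mem h1

/-- commutators in `C_L(z₁)`. -/
theorem comm_mem (h : CompData Q L z z₁ z') {u y w : G} (hu : u ∈ Q)
    (hun : u ∉ Subgroup.normalizer (L : Set G)) (hy : y ∈ L) (hyz : y * z₁ = z₁ * y)
    (hw : w ∈ L) (hwz : w * z₁ = z₁ * w) :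
    y * w = w * y ∨ y * w = z₁ * (w * y) := by
  have hu' := (h.conj u).resolve_left hun
  have hc := h.c_mem hu hy hyz
  have hce := h.c_eq hu' hy
  have hb := hu' _ (L.inv_mem hy)
  have hc' := h.c_mem hu hw hwz
  have hce' := h.c_eq hu' hw
  have hb' := hu' _ (L.inv_mem hw)
  have e1 : (u * y⁻¹ * u⁻¹ * y) * (u * w⁻¹ * u⁻¹ * w) =
      (y * w) * ((u * y⁻¹ * u⁻¹) * (u * w⁻¹ * u⁻¹)) := by
    rw [hce, hce']
    calc y * (u * y⁻¹ * u⁻¹) * (w * (u * w⁻¹ * u⁻¹))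
        = y * ((u * y⁻¹ * u⁻¹) * w) * (u * w⁻¹ * u⁻¹) := by group
      _ = y * (w * (u * y⁻¹ * u⁻¹)) * (u * w⁻¹ * u⁻¹) := by rw [h.comm hw hb]
      _ = _ := by group
  have e2 : (u * w⁻¹ * u⁻¹ * w) * (u * y⁻¹ * u⁻¹ * y) =
      (w * y) * ((u * w⁻¹ * u⁻¹) * (u * y⁻¹ * u⁻¹)) := by
    rw [hce, hce']
    calc w * (u * w⁻¹ * u⁻¹) * (y * (u * y⁻¹ * u⁻¹))
        = w * ((u * w⁻¹ * u⁻¹) * y) * (u * y⁻¹ * u⁻¹) := by group
      _ = w * (y * (u * w⁻¹ * u⁻¹)) * (u * y⁻¹ * u⁻¹) := by rw [h.comm hy hb']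
      _ = _ := by group
  rcases h.es.comm _ hc _ hc' with h1 | h1
  · left
    rw [e1, e2] at h1
    exact h.uniq (L.mul_mem hy hw) (L.mul_mem hw hy) (Subgroup.mul_mem _ hb hb')
      (Subgroup.mul_mem _ hb' hb) h1
  · right
    rw [e1, e2, h.z_eq] at h1
    have h2 : z₁ * z' * (w * y * (u * w⁻¹ * u⁻¹ * (u * y⁻¹ * u⁻¹))) =
        (z₁ * (w * y)) * (z' * (u * w⁻¹ * u⁻¹ * (u * y⁻¹ * u⁻¹))) := by
      calc z₁ * z' * (w * y * (u * w⁻¹ * u⁻¹ * (u * y⁻¹ * u⁻¹)))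
          = z₁ * (z' * (w * y)) * (u * w⁻¹ * u⁻¹ * (u * y⁻¹ * u⁻¹)) := by group
        _ = z₁ * ((w * y) * z') * (u * w⁻¹ * u⁻¹ * (u * y⁻¹ * u⁻¹)) := by
            rw [h.comm (L.mul_mem hw hy) h.z'_mem]
        _ = _ := by group
    rw [h2] at h1
    exact h.uniq (L.mul_mem hy hw) (L.mul_mem h.z₁_mem (L.mul_mem hw hy))
      (Subgroup.mul_mem _ hb hb') (Subgroup.mul_mem _ h.z'_mem (Subgroup.mul_mem _ hb' hb)) h1

/-- `C_L(z₁) ∩ Q ≤ ⟨z₁⟩`. -/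
theorem eq_of_mem_Q (h : CompData Q L z z₁ z') {u y : G} (hu : u ∈ Q)
    (hun : u ∉ Subgroup.normalizer (L : Set G)) (hy : y ∈ L) (hyQ : y ∈ Q) :
    y = 1 ∨ y = z₁ := by
  have hu' := (h.conj u).resolve_left hun
  have hce := h.c_eq hu' hy
  have hb := hu' _ (L.inv_mem hy)
  rcases h.es.comm u hu y⁻¹ (Q.inv_mem hyQ) with h1 | h1
  · left
    have h2 : u * y⁻¹ * u⁻¹ * y = 1 := by rw [h1]; group
    rw [hce] at h2
    exact h.uniq hy L.one_mem hb (Subgroup.one_mem _) (by rw [h2, one_mul])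
  · right
    have h2 : u * y⁻¹ * u⁻¹ * y = z := by rw [h1]; group
    rw [hce, h.z_eq] at h2
    exact h.uniq hy h.z₁_mem hb h.z'_mem h2

/-- `z = z₁ z₁^u`. -/
theorem z_eq_mul_conj (h : CompData Q L z z₁ z') {u y : G} (hu : u ∈ Q)
    (hun : u ∉ Subgroup.normalizer (L : Set G)) (hy : y ∈ L) (hyz : y * z₁ = z₁ * y)
    (hy1 : y ≠ 1) (hyz1 : y ≠ z₁) : z = z₁ * (u * z₁ * u⁻¹) := by
  have hu' := (h.conj u).resolve_left hun
  have hz₂ := hu' _ h.z₁_mem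
  have hcomm12 : z₁ * (u * z₁ * u⁻¹) = (u * z₁ * u⁻¹) * z₁ := h.comm h.z₁_mem hz₂
  -- `u` fixes `w`
  have huu : (u * u) * z₁ * (u * u)⁻¹ = z₁ := by
    rcases h.es.sq u hu with h1 | h1
    · rw [h1]; group
    · rw [h1, h.z_z₁]; group
  have huw : u * (z₁ * (u * z₁ * u⁻¹)) * u⁻¹ = z₁ * (u * z₁ * u⁻¹) := by
    calc u * (z₁ * (u * z₁ * u⁻¹)) * u⁻¹ = (u * z₁ * u⁻¹) * ((u * u) * z₁ * (u * u)⁻¹) := by group
      _ = z₁ * (u * z₁ * u⁻¹) := by rw [huu, hcomm12]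
  have huw' : u⁻¹ * (z₁ * (u * z₁ * u⁻¹)) * u = z₁ * (u * z₁ * u⁻¹) := by
    calc u⁻¹ * (z₁ * (u * z₁ * u⁻¹)) * u
        = u⁻¹ * (u * (z₁ * (u * z₁ * u⁻¹)) * u⁻¹) * u := by rw [huw]
      _ = z₁ * (u * z₁ * u⁻¹) := by group
  -- elements of `Q ∩ N(L)` fix `w`
  have hqw : ∀ q ∈ Q, q ∈ Subgroup.normalizer (L : Set G) →
      q * (z₁ * (u * z₁ * u⁻¹)) * q⁻¹ = z₁ * (u * z₁ * u⁻¹) := by
    intro q hq hqn
    have h1 := h.fix_z₁ (h.es.z_comm q hq) hqn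
    have h2 : u⁻¹ * q * u ∈ Subgroup.normalizer (L : Set G) := by
      have := h.es.conj_eq (Q.inv_mem hu) hq
      rw [inv_inv] at this
      rcases this with h3 | h3
      · rw [h3]; exact hqn
      · rw [h3]; exact Subgroup.mul_mem _ h.z_mem_normalizer hqn
    have h3 : u⁻¹ * q * u ∈ Q := Q.mul_mem (Q.mul_mem (Q.inv_mem hu) hq) hu
    have h4 := h.fix_z₁ (h.es.z_comm _ h3) h2
    calc q * (z₁ * (u * z₁ * u⁻¹)) * q⁻¹
        = (q * z₁ * q⁻¹) * (u * ((u⁻¹ * q * u) * z₁ * (u⁻¹ * q * u)⁻¹) * u⁻¹) := by group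
      _ = z₁ * (u * z₁ * u⁻¹) := by rw [h1, h4]
  have hall : ∀ q ∈ Q, q * (z₁ * (u * z₁ * u⁻¹)) = (z₁ * (u * z₁ * u⁻¹)) * q := by
    intro q hq
    have key : q * (z₁ * (u * z₁ * u⁻¹)) * q⁻¹ = z₁ * (u * z₁ * u⁻¹) := by
      rcases h.normalizer_or hu hun hy hyz hy1 hyz1 hq with h1 | h1
      · exact hqw q hq h1
      · have h2 := hqw (q * u) (Q.mul_mem hq hu) h1
        calc q * (z₁ * (u * z₁ * u⁻¹)) * q⁻¹
            = (q * u) * (u⁻¹ * (z₁ * (u * z₁ * u⁻¹)) * u) * (q * u)⁻¹ := by group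
          _ = z₁ * (u * z₁ * u⁻¹) := by rw [huw', h2]
    calc q * (z₁ * (u * z₁ * u⁻¹)) = (q * (z₁ * (u * z₁ * u⁻¹)) * q⁻¹) * q := by group
      _ = _ := by rw [key]
  rcases h.cent _ hall with h1 | h1
  · exfalso
    apply h.z₁_ne
    exact h.uniq h.z₁_mem L.one_mem hz₂ (Subgroup.one_mem _) (by rw [h1, one_mul])
  · exact h1.symm

end CompData

end Cfsg.Agent.Lib.Helper90
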