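import Mathlib
import Cfsg.Prelude.Def_MonsterType
import Cfsg.Agent.Lib.Helper90.CompData
import Cfsg.Agent.Lib.Helper90.PairData
import Cfsg.Agent.Lib.Lead.Cores

set_option autoImplicit false

namespace Cfsg.Agent.Lib.Helper90

/-- in a non-abelian finite simple group the centraliser of an involution has more than two elements. -/
theorem exists_comm_ne_of_simple {L : Type*} [Group L] [Finite L] [hs : IsSimpleGroup L]
    (hL : ¬ IsMulCommutative L) (t : L) (ht1 : t ≠ 1) (htt : t * t = 1) :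
    ∃ y : L, y * t = t * y ∧ y ≠ 1 ∧ y ≠ t := by
  have : Fact (Nat.Prime 2) := ⟨Nat.prime_two⟩
  by_contra hcon
  push Not at hcon
  have hC : ∀ y, y * t = t * y → y = 1 ∨ y = t := by
    intro y hy
    by_cases h1 : y = 1
    · exact Or.inl h1
    · exact Or.inr (hcon y hy h1)
  have hto : orderOf t = 2 := by
    apply orderOf_eq_prime
    · rw [pow_two]; exact htt
    · exact ht1
  have hzp : IsPGroup 2 (Subgroup.zpowers t) := by
    apply IsPGroup.of_card (n := 1)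
    rw [Nat.card_zpowers, hto, pow_one]
  obtain ⟨S, hS⟩ := hzp.exists_le_sylow
  have htS : t ∈ (S : Subgroup L) := hS (Subgroup.mem_zpowers t)
  have hnt : Nontrivial (S : Subgroup L) := ⟨⟨⟨t, htS⟩, 1, fun h => ht1 (congrArg Subtype.val h)⟩⟩
  have hcn := IsPGroup.center_nontrivial S.2
  obtain ⟨c, hc⟩ := exists_ne (1 : Subgroup.center (S : Subgroup L))
  have hc1 : ((c : (S : Subgroup L)) : L) ≠ 1 := by
    intro h
    apply hc
    ext
    exact h
  have hct : ((c : (S : Subgroup L)) : L) = t := by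
    have h1 := Subgroup.mem_center_iff.mp c.2 ⟨t, htS⟩
    have h2 : t * ((c : (S : Subgroup L)) : L) = ((c : (S : Subgroup L)) : L) * t :=
      congrArg Subtype.val h1
    exact (hC _ h2.symm).resolve_left hc1
  have hSle : (S : Subgroup L) ≤ Subgroup.zpowers t := by
    intro s hs
    have h1 := Subgroup.mem_center_iff.mp c.2 ⟨s, hs⟩
    have h2 : s * ((c : (S : Subgroup L)) : L) = ((c : (S : Subgroup L)) : L) * s :=
      congrArg Subtype.val h1
    rw [hct] at h2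
    rcases hC s h2 with h3 | h3
    · rw [h3]; exact Subgroup.one_mem _
    · rw [h3]; exact Subgroup.mem_zpowers _
  have hScard : Nat.card (S : Subgroup L) ≤ 2 := by
    have := Subgroup.card_le_of_le hSle
    rwa [Nat.card_zpowers, hto] at this
  have h4 : ¬ 4 ∣ Nat.card L := by
    intro h4
    have h5 : 2 ^ 2 ∣ Nat.card L := by norm_num; exact h4
    have h6 := (Nat.Prime.pow_dvd_iff_le_factorization Nat.prime_two Nat.card_pos.ne').mp h5
    have h7 := S.card_eq_multiplicity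
    have h8 : 2 ^ 2 ≤ 2 ^ (Nat.card L).factorization 2 := Nat.pow_le_pow_right (by norm_num) h6
    rw [← h7] at h8
    omega
  have hd := mem_oddCore_or_of_not_four_dvd t hto h4
  have hN : (Cfsg.oddCore L).Normal := by
    unfold Cfsg.oddCore
    infer_instance
  rcases hs.eq_bot_or_eq_top_of_normal _ hN with h | h
  · apply hL
    have hall : ∀ d : L, d = 1 ∨ d = t := by
      intro d
      rcases hd d with h1 | h1
      · left; rw [h] at h1; exact Subgroup.mem_bot.mp h1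
      · right
        rw [h] at h1
        have h2 : t * d = 1 := Subgroup.mem_bot.mp h1
        calc d = (t * t) * d := by rw [htt, one_mul]
          _ = t * (t * d) := by group
          _ = t := by rw [h2, mul_one]
    refine ⟨⟨fun a b => ?_⟩⟩
    rcases hall a with rfl | rfl <;> rcases hall b with rfl | rfl <;> simp
  · have h1 : (Nat.card (Cfsg.oddCore L)).Coprime 2 := Cfsg.Agent.Lib.Lead.card_pPrimeCore_coprime 2
    have h2 : orderOf t ∣ Nat.card (Cfsg.oddCore L) := by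
      have htO : t ∈ Cfsg.oddCore L := by rw [h]; trivial
      have := orderOf_dvd_natCard (⟨t, htO⟩ : Cfsg.oddCore L)
      rwa [Subgroup.orderOf_mk] at this
    rw [hto] at h2
    have := Nat.Coprime.eq_one_of_dvd h1.symm h2
    omega

variable {G : Type*} [Group G]

namespace CompData

variable {Q L : Subgroup G} {z z₁ z' : G}

/-- a Sylow `2`-subgroup of `G` containing `Q` centralises `z`. -/
theorem sylow_comm [Finite G] (h : CompData Q L z z₁ z') (S : Sylow 2 G)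
    (hS : Q ≤ (S : Subgroup G)) : ∀ s ∈ (S : Subgroup G), s * z = z * s := by
  have : Fact (Nat.Prime 2) := ⟨Nat.prime_two⟩
  have hzS : z ∈ (S : Subgroup G) := hS h.es.z_mem
  have hnt : Nontrivial (S : Subgroup G) :=
    ⟨⟨⟨z, hzS⟩, 1, fun e => h.es.z_ne (congrArg Subtype.val e)⟩⟩
  have hcn := IsPGroup.center_nontrivial S.2
  obtain ⟨c, hc⟩ := exists_ne (1 : Subgroup.center (S : Subgroup G))
  have hc1 : ((c : (S : Subgroup G)) : G) ≠ 1 := by
    intro e
    apply hc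
    ext
    exact e
  have hcz : ((c : (S : Subgroup G)) : G) = z := by
    refine (h.cent _ ?_).resolve_left hc1
    intro q hq
    exact congrArg Subtype.val (Subgroup.mem_center_iff.mp c.2 ⟨q, hS hq⟩)
  intro s hs
  have := congrArg Subtype.val (Subgroup.mem_center_iff.mp c.2 ⟨s, hs⟩)
  rw [← hcz]
  exact this

/-- `C_L(z₁)` is a maximal `2`-subgroup of `L`. -/
theorem le_of_isPGroup [Finite G] (h : CompData Q L z z₁ z') {u : G} (hu : u ∈ Q)
    (hconj2 : ∀ g, g ∈ Subgroup.normalizer (L : Set G) ∨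
      u⁻¹ * g ∈ Subgroup.normalizer (L : Set G))
    (S₁ : Subgroup G) (hS₁ : IsPGroup 2 S₁) (hS₁L : S₁ ≤ L)
    (hle : L ⊓ Subgroup.centralizer ({z₁} : Set G) ≤ S₁) :
    S₁ ≤ L ⊓ Subgroup.centralizer ({z₁} : Set G) := by
  have : Fact (Nat.Prime 2) := ⟨Nat.prime_two⟩
  obtain ⟨S, hS⟩ := h.es.two.exists_le_sylow
  have hSz := h.sylow_comm S hS
  obtain ⟨g, hg⟩ := exists_conj_le_sylow S S₁ hS₁
  obtain ⟨g', hg'n, hg'⟩ : ∃ g' ∈ Subgroup.normalizer (L : Set G),
      ∀ x ∈ S₁, (g' * x * g'⁻¹) * z = z * (g' * x * g'⁻¹) := by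
    rcases hconj2 g with h1 | h1
    · exact ⟨g, h1, fun x hx => hSz _ (hg x hx)⟩
    · refine ⟨u⁻¹ * g, h1, fun x hx => ?_⟩
      have h2 := hSz _ (hg x hx)
      have h3 : u * z = z * u := h.es.z_comm u hu
      have h4 : u⁻¹ * z = z * u⁻¹ := h.es.z_comm _ (Q.inv_mem hu)
      calc u⁻¹ * g * x * (u⁻¹ * g)⁻¹ * z = u⁻¹ * (g * x * g⁻¹) * (u * z) := by group
        _ = u⁻¹ * ((g * x * g⁻¹) * z) * u := by rw [h3]; group
        _ = (u⁻¹ * z) * (g * x * g⁻¹) * u := by rw [h2]; group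
        _ = z * (u⁻¹ * g * x * (u⁻¹ * g)⁻¹) := by rw [h4]; group
  have hmap : S₁.map (MulAut.conj g').toMonoidHom ≤ L ⊓ Subgroup.centralizer ({z₁} : Set G) := by
    rintro _ ⟨x, hx, rfl⟩
    have hxL : g' * x * g'⁻¹ ∈ L := (Subgroup.mem_normalizer_iff.mp hg'n x).mp (hS₁L hx)
    refine Subgroup.mem_inf.mpr ⟨by simpa using hxL, ?_⟩
    rw [Subgroup.mem_centralizer_singleton_iff]
    simpa using (h.comm_z_iff hxL).mp (hg' x hx)
  have hcard : Nat.card S₁ ≤ Nat.card ↥(L ⊓ Subgroup.centralizer ({z₁} : Set G)) := by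
    have e : Nat.card (S₁.map (MulAut.conj g').toMonoidHom) = Nat.card S₁ :=
      Subgroup.card_map_of_injective (MulAut.conj g').injective
    rw [← e]
    exact Subgroup.card_le_of_le hmap
  exact (Subgroup.eq_of_le_of_card_ge hle hcard).ge

/-- elements of `C_L(z₁)` have order dividing `4`. -/
theorem pow_four (h : CompData Q L z z₁ z') {u y : G} (hu : u ∈ Q)
    (hun : u ∉ Subgroup.normalizer (L : Set G)) (hy : y ∈ L) (hyz : y * z₁ = z₁ * y) :
    y ^ 4 = 1 := by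
  have e : y ^ 4 = (y * y) * (y * y) := by
    rw [← pow_two, ← pow_two, ← pow_mul]
  rw [e]
  rcases h.sq_mem hu hun hy hyz with h1 | h1
  · rw [h1, one_mul]
  · rw [h1, h.z₁_sq]

/-- elements of `L L^u` centralising `z` have order dividing `4`. -/
theorem pow_four_of_mem_sup (h : CompData Q L z z₁ z') {u : G} (hu : u ∈ Q)
    (hun : u ∉ Subgroup.normalizer (L : Set G)) (hz : z = z₁ * (u * z₁ * u⁻¹)) {m : G}
    (hm : m ∈ L ⊔ L.map (MulAut.conj u).toMonoidHom) (hmz : m * z = z * m) : m ^ 4 = 1 := by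
  have hu' := (h.conj u).resolve_left hun
  obtain ⟨l, hl, l₂, hl₂, rfl⟩ := exists_mul_of_mem_sup_of_commute (C := L)
    (A := L.map (MulAut.conj u).toMonoidHom) (by
      rintro c hc _ ⟨a, ha, rfl⟩
      simpa using (h.comm hc (hu' a ha)).symm) hm
  obtain ⟨l', hl', rfl⟩ := hl₂
  have e0 : (MulAut.conj u).toMonoidHom l' = u * l' * u⁻¹ := by simp
  rw [e0] at hmz ⊢
  have hb := hu' l' hl'
  have hcm : l * (u * l' * u⁻¹) = (u * l' * u⁻¹) * l := h.comm hl hb
  have hz₂ := hu' _ h.z₁_mem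
  have h1 : (l * z₁ * l⁻¹) * (u * (l' * z₁ * l'⁻¹) * u⁻¹) = z₁ * (u * z₁ * u⁻¹) := by
    have h2 : (l * (u * l' * u⁻¹)) * z * (l * (u * l' * u⁻¹))⁻¹ = z := by rw [hmz]; group
    have h3 : (u * l' * u⁻¹) * z₁ = z₁ * (u * l' * u⁻¹) := (h.comm h.z₁_mem hb).symm
    have h4 : l⁻¹ * (u * (l' * z₁ * l'⁻¹) * u⁻¹) = (u * (l' * z₁ * l'⁻¹) * u⁻¹) * l⁻¹ :=
      h.comm (L.inv_mem hl) (hu' _ (L.mul_mem (L.mul_mem hl' h.z₁_mem) (L.inv_mem hl')))
    calc (l * z₁ * l⁻¹) * (u * (l' * z₁ * l'⁻¹) * u⁻¹)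
        = l * z₁ * (l⁻¹ * (u * (l' * z₁ * l'⁻¹) * u⁻¹)) := by group
      _ = l * z₁ * ((u * (l' * z₁ * l'⁻¹) * u⁻¹) * l⁻¹) := by rw [h4]
      _ = l * (z₁ * (u * l' * u⁻¹)) * (u * z₁ * u⁻¹) * (u * l' * u⁻¹)⁻¹ * l⁻¹ := by group
      _ = l * ((u * l' * u⁻¹) * z₁) * (u * z₁ * u⁻¹) * (u * l' * u⁻¹)⁻¹ * l⁻¹ := by rw [h3]
      _ = (l * (u * l' * u⁻¹)) * (z₁ * (u * z₁ * u⁻¹)) * (l * (u * l' * u⁻¹))⁻¹ := by group
      _ = z₁ * (u * z₁ * u⁻¹) := by rw [← hz, h2]
  have h5 : l * z₁ * l⁻¹ = z₁ :=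
    h.uniq (L.mul_mem (L.mul_mem hl h.z₁_mem) (L.inv_mem hl)) h.z₁_mem
      (hu' _ (L.mul_mem (L.mul_mem hl' h.z₁_mem) (L.inv_mem hl'))) hz₂ h1
  have h6 : l' * z₁ * l'⁻¹ = z₁ := by
    rw [h5] at h1
    have h7 := mul_left_cancel h1
    have := congrArg (fun w => u⁻¹ * w * u) h7
    simpa [mul_assoc] using this
  have h8 : l ^ 4 = 1 := h.pow_four hu hun hl (by
    calc l * z₁ = (l * z₁ * l⁻¹) * l := by group
      _ = z₁ * l := by rw [h5])
  have h9 : l' ^ 4 = 1 := h.pow_four hu hun hl' (by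
    calc l' * z₁ = (l' * z₁ * l'⁻¹) * l' := by group
      _ = z₁ * l' := by rw [h6])
  have hc : Commute l (u * l' * u⁻¹) := hcm
  rw [hc.mul_pow, h8, conj_pow, h9]
  group

end CompData

end Cfsg.Agent.Lib.Helper90
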