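import Mathlib
import Cfsg.Agent.Lib.Helper90.Holo6

/-!
# Sylow 2-subgroups of an involution centralizer with `C(O₂(C)) = ⟨z⟩` are Sylow in the group
-/

set_option autoImplicit false

namespace Cfsg.Agent.Lib.Helper90

open Module

/-- the centralizer of the 2-core has at most two elements. -/
def SmallCoreCent (C : Type*) [Group C] : Prop :=
  ∃ w : C, ∀ x : C, (∀ q ∈ Cfsg.pCore 2 C, x * q = q * x) → x = 1 ∨ x = w

theorem SmallCoreCent.of_equiv {C C' : Type*} [Group C] [Group C'] (e : C ≃* C')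
    (h : SmallCoreCent C') : SmallCoreCent C := by
  obtain ⟨w, hw⟩ := h
  refine ⟨e.symm w, fun x hx => ?_⟩
  have h1 : ∀ q ∈ Cfsg.pCore 2 C', e x * q = q * e x := by
    intro q hq
    rw [← Lead.pCore_map_equiv e] at hq
    obtain ⟨q', hq', rfl⟩ := hq
    show e x * e q' = e q' * e x
    rw [← map_mul, ← map_mul, hx q' hq']
  rcases hw (e x) h1 with h2 | h2
  · left
    exact e.injective (by rw [h2, map_one])
  · right
    rw [← h2, e.symm_apply_apply]

theorem AffData.smallCoreCent {G : Type*} [Group G] {n : ℕ} (D : AffData G n) (hn : 1 ≤ n) :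
    SmallCoreCent ↥(Subgroup.centralizer ({D.z} : Set G)) := by
  refine ⟨⟨D.z, D.mem_cent.mpr rfl⟩, fun x hx => ?_⟩
  have h1 : (x : G) ∈ Subgroup.centralizer (D.Q : Set G) := by
    rw [Subgroup.mem_centralizer_iff]
    intro q hq
    rw [SetLike.mem_coe, ← D.pCore_eq hn] at hq
    obtain ⟨q', hq', rfl⟩ := hq
    exact (congrArg Subtype.val (hx q' hq')).symm
  rw [D.centralizer_Q hn, (D.es hn).mem_center_map_iff'] at h1
  rcases h1 with h1 | h1
  · left; exact Subtype.ext h1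
  · right; exact Subtype.ext h1

theorem sylow_of_smallCoreCent {G : Type*} [Group G] [Finite G] (z : G) (hz : orderOf z = 2)
    (hP : SmallCoreCent ↥(Subgroup.centralizer ({z} : Set G)))
    (T : Sylow 2 ↥(Subgroup.centralizer ({z} : Set G))) :
    ¬ 2 ∣ ((T : Subgroup ↥(Subgroup.centralizer ({z} : Set G))).map
      (Subgroup.subtype (Subgroup.centralizer ({z} : Set G)))).index := by
  have : Fact (Nat.Prime 2) := ⟨Nat.prime_two⟩
  obtain ⟨C, hC⟩ : ∃ C : Subgroup G, C = Subgroup.centralizer ({z} : Set G) := ⟨_, rfl⟩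
  subst hC
  have hmemC : ∀ {x : G}, x ∈ Subgroup.centralizer ({z} : Set G) ↔ x * z = z * x :=
    Subgroup.mem_centralizer_singleton_iff
  have hz1 : z ≠ 1 := by
    intro h
    rw [h, orderOf_one] at hz
    norm_num at hz
  obtain ⟨zc, hzc⟩ : ∃ zc : ↥(Subgroup.centralizer ({z} : Set G)), (zc : G) = z :=
    ⟨⟨z, hmemC.mpr rfl⟩, rfl⟩
  have hzcomm : ∀ x : ↥(Subgroup.centralizer ({z} : Set G)), x * zc = zc * x := by
    intro x
    apply Subtype.ext
    show (x : G) * (zc : G) = (zc : G) * (x : G)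
    rw [hzc]
    exact hmemC.mp x.2
  obtain ⟨w, hw⟩ := hP
  have hzc1 : zc ≠ 1 := by
    intro h
    apply hz1
    rw [← hzc, h]; rfl
  have hwz : w = zc := by
    rcases hw zc (fun q _ => (hzcomm q).symm) with h | h
    · exact absurd h hzc1
    · exact h.symm
  rw [hwz] at hw
  -- `zc` lies in the 2-core
  have hzcore : zc ∈ Cfsg.pCore 2 ↥(Subgroup.centralizer ({z} : Set G)) := by
    have hN : (Subgroup.zpowers zc).Normal := by
      constructor
      intro n hn g
      obtain ⟨i, rfl⟩ := Subgroup.mem_zpowers_iff.mp hn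
      have hc : Commute g zc := hzcomm g
      rw [(hc.zpow_right i).mul_inv_cancel]
      exact hn
    have h2 : IsPGroup 2 (Subgroup.zpowers zc) := by
      apply IsPGroup.of_card (n := 1)
      have h3 : orderOf (zc : G) = orderOf zc := Subgroup.orderOf_coe zc
      rw [hzc] at h3
      rw [Nat.card_zpowers, pow_one, ← hz, h3]
    exact Lead.le_pCore hN h2 (Subgroup.mem_zpowers zc)
  have hcoreT := Lead.pCore_le_sylow T
  obtain ⟨T', hT'⟩ : ∃ T' : Subgroup G, T' = (T : Subgroup ↥(Subgroup.centralizer ({z} : Set G))).map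
      (Subgroup.subtype (Subgroup.centralizer ({z} : Set G))) := ⟨_, rfl⟩
  rw [← hT']
  have hT'mem : ∀ {x : G}, x ∈ T' ↔ ∃ h : x ∈ Subgroup.centralizer ({z} : Set G),
      (⟨x, h⟩ : ↥(Subgroup.centralizer ({z} : Set G))) ∈ (T : Subgroup _) := by
    intro x
    rw [hT']
    constructor
    · rintro ⟨y, hy, rfl⟩
      exact ⟨y.2, hy⟩
    · rintro ⟨h, hx⟩
      exact ⟨⟨x, h⟩, hx, rfl⟩
  have hT'2 : IsPGroup 2 T' := by rw [hT']; exact T.2.map _
  obtain ⟨m, hm⟩ := IsPGroup.iff_card.mp hT'2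
  intro hdvd
  have hdiv : 2 ^ (m + 1) ∣ Nat.card G := by
    rw [← Subgroup.card_mul_index T', hm, pow_succ]
    exact Nat.mul_dvd_mul_left _ hdvd
  obtain ⟨K, hK, hTK⟩ := Sylow.exists_subgroup_card_pow_succ hdiv hm
  have hnorm : (T'.subgroupOf K).Normal := by
    apply Subgroup.normal_of_index_eq_two
    have h1 := Subgroup.card_mul_index (T'.subgroupOf K)
    rw [Nat.card_congr (Subgroup.subgroupOfEquivOfLe hTK).toEquiv, hm, hK, pow_succ] at h1
    exact Nat.eq_of_mul_eq_mul_left (by positivity) h1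
  have hconj : ∀ k ∈ K, ∀ t ∈ T', k * t * k⁻¹ ∈ T' := by
    intro k hk t ht
    have := hnorm.conj_mem ⟨t, hTK ht⟩ (Subgroup.mem_subgroupOf.mpr ht) ⟨k, hk⟩
    exact Subgroup.mem_subgroupOf.mp this
  have hzT' : z ∈ T' := hT'mem.mpr ⟨hmemC.mpr rfl, by
    have := hcoreT hzcore
    have e : (⟨z, hmemC.mpr rfl⟩ : ↥(Subgroup.centralizer ({z} : Set G))) = zc :=
      Subtype.ext hzc.symm
    rw [e]; exact this⟩
  have hKC : K ≤ Subgroup.centralizer ({z} : Set G) := by
    intro k hk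
    obtain ⟨hy, hyT⟩ := hT'mem.mp (hconj k hk z hzT')
    have h1 : ∀ q ∈ Cfsg.pCore 2 ↥(Subgroup.centralizer ({z} : Set G)),
        (⟨k * z * k⁻¹, hy⟩ : ↥(Subgroup.centralizer ({z} : Set G))) * q = q * ⟨k * z * k⁻¹, hy⟩ := by
      intro q hq
      apply Subtype.ext
      show k * z * k⁻¹ * (q : G) = (q : G) * (k * z * k⁻¹)
      have hqT' : (q : G) ∈ T' := hT'mem.mpr ⟨q.2, hcoreT hq⟩
      have h2 := hconj k⁻¹ (K.inv_mem hk) _ hqT'
      obtain ⟨h3, -⟩ := hT'mem.mp h2
      have h4 := hmemC.mp h3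
      calc k * z * k⁻¹ * (q : G) = k * (z * (k⁻¹ * (q : G) * k⁻¹⁻¹)) * k⁻¹ := by group
        _ = k * ((k⁻¹ * (q : G) * k⁻¹⁻¹) * z) * k⁻¹ := by rw [h4]
        _ = (q : G) * (k * z * k⁻¹) := by group
    rcases hw _ h1 with h5 | h5
    · exfalso
      have h6 : k * z * k⁻¹ = 1 := congrArg Subtype.val h5
      apply hz1
      calc z = k⁻¹ * (k * z * k⁻¹) * k := by group
        _ = 1 := by rw [h6]; group
    · have h6 : k * z * k⁻¹ = z := (congrArg Subtype.val h5).trans hzc
      rw [hmemC]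
      calc k * z = k * z * k⁻¹ * k := by group
        _ = z * k := by rw [h6]
  have hK2 : IsPGroup 2 (K.subgroupOf (Subgroup.centralizer ({z} : Set G))) :=
    (IsPGroup.of_card hK).comap_subtype
  have hTle : (T : Subgroup ↥(Subgroup.centralizer ({z} : Set G))) ≤
      K.subgroupOf (Subgroup.centralizer ({z} : Set G)) := by
    intro t ht
    rw [Subgroup.mem_subgroupOf]
    exact hTK (hT'mem.mpr ⟨t.2, ht⟩)
  have heq := T.is_maximal' hK2 hTle
  have hc1 : Nat.card ↥(K.subgroupOf (Subgroup.centralizer ({z} : Set G))) = 2 ^ (m + 1) := by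
    rw [Nat.card_congr (Subgroup.subgroupOfEquivOfLe hKC).toEquiv, hK]
  have hc2 : Nat.card ↥(T : Subgroup ↥(Subgroup.centralizer ({z} : Set G))) = 2 ^ m := by
    rw [← hm, hT']
    exact Nat.card_congr (Subgroup.equivMapOfInjective _ _ (Subgroup.subtype_injective _)).toEquiv
  rw [heq, hc2] at hc1
  have := Nat.pow_right_injective (le_refl 2) hc1
  omega

end Cfsg.Agent.Lib.Helper90
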