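import Mathlib
import Cfsg.Prelude.Def_MonsterType
import Cfsg.Agent.Lib.Helper90.ESConverse
import Cfsg.Agent.Lib.Helper90.Large
import Cfsg.Agent.Lib.Helper29.FStar
import Cfsg.Agent.S1265
import Cfsg.Agent.S5433

set_option autoImplicit false

namespace Cfsg.Agent.Lib.Helper90

variable {G : Type*} [Group G]

/-- pushing the ambient extraspecial structure from a subgroup `H` to `G`. -/
theorem ES.map_subtype {H : Subgroup G} {Q : Subgroup H} {z : H} (h : ES Q z) :
    ES (Q.map H.subtype) (z : G) := by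
  have mem : ∀ x : G, x ∈ Q.map H.subtype ↔ ∃ hx : x ∈ H, (⟨x, hx⟩ : H) ∈ Q := by
    intro x
    constructor
    · rintro ⟨y, hy, rfl⟩
      exact ⟨y.2, hy⟩
    · rintro ⟨hx, hxQ⟩
      exact ⟨⟨x, hx⟩, hxQ, rfl⟩
  refine ⟨h.two.map _, ?_, ?_, ?_, ?_, ?_, ?_, ?_, ?_⟩
  · intro h1; exact h.z_ne (Subtype.ext h1)
  · exact ⟨z, h.z_mem, rfl⟩
  · exact congrArg Subtype.val h.z_sq
  · rintro _ ⟨q, hq, rfl⟩
    exact congrArg Subtype.val (h.z_comm q hq)
  · rintro _ ⟨y, hy, rfl⟩ hc
    rcases h.center y hy (fun q hq => Subtype.ext (hc q ⟨q, hq, rfl⟩)) with h1 | h1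
    · left; exact congrArg Subtype.val h1
    · right; exact congrArg Subtype.val h1
  · rintro _ ⟨x, hx, rfl⟩ _ ⟨y, hy, rfl⟩
    rcases h.comm x hx y hy with h1 | h1
    · left; exact congrArg Subtype.val h1
    · right; exact congrArg Subtype.val h1
  · rintro _ ⟨x, hx, rfl⟩
    rcases h.sq x hx with h1 | h1
    · left; exact congrArg Subtype.val h1
    · right; exact congrArg Subtype.val h1
  · obtain ⟨x, hx, y, hy, hxy⟩ := h.nonab
    exact ⟨x, ⟨x, hx, rfl⟩, y, ⟨y, hy, rfl⟩, fun h1 => hxy (Subtype.ext h1)⟩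

/-- The standard consequences of `F*(C_G(z)) = Q` extraspecial (with `Q` viewed inside `G`). -/
theorem setting_of_genFitting [Finite G] (z : G) (hz : orderOf z = 2) (Q : Subgroup G)
    (hF : (Cfsg.generalizedFittingSubgroup ↥(Subgroup.centralizer ({z} : Set G))).map
      (Subgroup.centralizer ({z} : Set G)).subtype = Q)
    (hQ : Cfsg.IsExtraspecial 2 ↥Q) :
    ES Q z ∧ Subgroup.centralizer (Q : Set G) = ((Subgroup.center ↥Q).map Q.subtype) ∧
      Subgroup.centralizer (((Subgroup.center ↥Q).map Q.subtype) : Set G) ≤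
        Subgroup.normalizer (Q : Set G) := by
  have hz1 : z ≠ 1 := by
    intro h; rw [h, orderOf_one] at hz; omega
  have hzH : z ∈ Subgroup.centralizer ({z} : Set G) := Subgroup.mem_centralizer_singleton_iff.mpr rfl
  have hQH : Q ≤ Subgroup.centralizer ({z} : Set G) := by
    rw [← hF]; exact Subgroup.map_subtype_le _
  have hzQ : z ∈ Q := by
    rw [← hF]
    refine ⟨⟨z, hzH⟩, ?_, rfl⟩
    apply Cfsg.Agent.Lib.Helper29.fittingSubgroup_le_generalizedFittingSubgroup
    apply Cfsg.Agent.Lib.Helper29.center_le_fittingSubgroup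
    rw [Subgroup.mem_center_iff]
    intro c
    ext
    exact Subgroup.mem_centralizer_singleton_iff.mp c.2
  obtain ⟨z0, hES, hZmem⟩ := ES.of_isExtraspecial hQ
  have hzz0 : z = z0 := by
    have := hES.center z hzQ (fun q hq => Subgroup.mem_centralizer_singleton_iff.mp (hQH hq))
    exact this.resolve_left hz1
  subst hzz0
  refine ⟨hES, ?_, ?_⟩
  · apply le_antisymm
    · intro c hc
      have hcz : c ∈ Subgroup.centralizer ({z} : Set G) := by
        rw [Subgroup.mem_centralizer_singleton_iff]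
        exact (Subgroup.mem_centralizer_iff.mp hc z hzQ).symm
      have h1 : (⟨c, hcz⟩ : Subgroup.centralizer ({z} : Set G)) ∈ Subgroup.centralizer
          (Cfsg.generalizedFittingSubgroup ↥(Subgroup.centralizer ({z} : Set G)) : Set _) := by
        rw [Subgroup.mem_centralizer_iff]
        intro y hy
        ext
        have hyQ : (y : G) ∈ Q := by rw [← hF]; exact ⟨y, hy, rfl⟩
        exact Subgroup.mem_centralizer_iff.mp hc _ hyQ
      have h2 := Cfsg.Agent.S1265.result h1
      have hcQ : c ∈ Q := by rw [← hF]; exact ⟨_, h2, rfl⟩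
      rw [mem_center_map_iff]
      exact ⟨hcQ, fun q hq => Subgroup.mem_centralizer_iff.mp hc q hq⟩
    · intro c hc
      rw [mem_center_map_iff] at hc
      rw [Subgroup.mem_centralizer_iff]
      exact fun q hq => hc.2 q hq
  · intro c hc
    have hcz : c ∈ Subgroup.centralizer ({z} : Set G) :=
      Subgroup.mem_centralizer_singleton_iff.mpr ((hES.mem_centralizer_center_iff c).mp hc)
    have hn := Cfsg.Agent.Lib.Helper29.generalizedFittingSubgroup_normal
      ↥(Subgroup.centralizer ({z} : Set G))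
    have key : ∀ c (hcz : c ∈ Subgroup.centralizer ({z} : Set G)), ∀ q ∈ Q, c * q * c⁻¹ ∈ Q := by
      intro c hcz q hq
      rw [← hF] at hq ⊢
      obtain ⟨y, hy, rfl⟩ := hq
      exact ⟨⟨c, hcz⟩ * y * ⟨c, hcz⟩⁻¹, hn.conj_mem y hy _, by simp⟩
    rw [Subgroup.mem_normalizer_iff]
    intro q
    constructor
    · exact key c hcz q
    · intro hq
      have := key c⁻¹ (Subgroup.inv_mem _ hcz) _ hq
      have e : c⁻¹ * (c * q * c⁻¹) * c⁻¹⁻¹ = q := by group
      rwa [e] at this

/-- In the large extraspecial setting every nontrivial normal subgroup contains `z`. -/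
theorem z_mem_of_normal [Finite G] {Q : Subgroup G} {z : G} (hES : ES Q z)
    (hL2 : Subgroup.centralizer (Q : Set G) = ((Subgroup.center ↥Q).map Q.subtype))
    (hL3 : Subgroup.centralizer (((Subgroup.center ↥Q).map Q.subtype) : Set G) ≤
      Subgroup.normalizer (Q : Set G))
    (hlarge : ∀ K : Subgroup G, Odd (Nat.card K) → Q ≤ Subgroup.normalizer (K : Set G) → K = ⊥)
    (N : Subgroup G) [hN : N.Normal] (hN1 : N ≠ ⊥) : z ∈ N := by
  have : Fact (Nat.Prime 2) := ⟨Nat.prime_two⟩
  by_contra hzN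
  have hNQ : ∀ x ∈ N, x ∈ Q → x = 1 := by
    intro x hxN hxQ
    by_contra hx1
    have hxz : x ≠ z := fun h => hzN (h ▸ hxN)
    obtain ⟨q, -, hqx⟩ := hES.exists_conj hxQ hx1 hxz
    apply hzN
    have h1 : z = q * x * q⁻¹ * x⁻¹ := by rw [hqx]; group
    rw [h1]
    exact N.mul_mem (hN.conj_mem x hxN q) (N.inv_mem hxN)
  have hfpf : ∀ n ∈ N, z * n = n * z → n = 1 := by
    intro n hn hnz
    have hnN : n ∈ Subgroup.normalizer (Q : Set G) :=
      hL3 ((hES.mem_centralizer_center_iff n).mpr hnz.symm)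
    have h1 : n ∈ Subgroup.centralizer (Q : Set G) := by
      rw [Subgroup.mem_centralizer_iff]
      intro q hq
      have h2 : n * q⁻¹ * n⁻¹ ∈ Q := (Subgroup.mem_normalizer_iff.mp hnN _).mp (Q.inv_mem hq)
      have h3 : q * n * q⁻¹ * n⁻¹ ∈ Q := by
        have := Q.mul_mem hq h2
        have e : q * (n * q⁻¹ * n⁻¹) = q * n * q⁻¹ * n⁻¹ := by group
        rwa [e] at this
      have h4 : q * n * q⁻¹ * n⁻¹ ∈ N := N.mul_mem (hN.conj_mem n hn q) (N.inv_mem hn)
      have h5 := hNQ _ h4 h3
      have := congrArg (· * (n * q)) h5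
      simpa [mul_assoc] using this
    rw [hL2] at h1
    rcases (hES.mem_center_map_iff' n).mp h1 with h2 | h2
    · exact h2
    · exact absurd (h2 ▸ hn) hzN
  have hinv := inverts_of_fixedPointFree N z hES.z_sq (fun k hk => hN.conj_mem k hk z) hfpf
  have hodd : Odd (Nat.card N) := by
    rw [← Nat.not_even_iff_odd, even_iff_two_dvd]
    intro h2
    obtain ⟨n, hn⟩ := exists_prime_orderOf_dvd_card' 2 h2
    have hn1 : (n : G) ≠ 1 := by
      intro h
      have : n = 1 := Subtype.ext h
      rw [this, orderOf_one] at hn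
      omega
    have hnn : (n : G) * n = 1 := by
      have := pow_orderOf_eq_one n
      rw [hn, pow_two] at this
      exact congrArg Subtype.val this
    have h3 := hinv n n.2
    have h4 : (n : G)⁻¹ = n := inv_eq_of_mul_eq_one_right hnn
    rw [h4] at h3
    apply hn1
    apply hfpf n n.2
    calc z * n = (z * n * z⁻¹) * z := by group
      _ = n * z := by rw [h3]
  apply hN1
  apply hlarge N hodd
  rw [Subgroup.normalizer_eq_top]
  exact le_top

/-- Simplicity criterion: `Q` large and `C_G(z) ≤ ⟨z^G⟩`. -/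
theorem isSimpleGroup_of_large [Finite G] {Q : Subgroup G} {z : G} (hES : ES Q z)
    (hlarge : Cfsg.IsLargeExtraspecial Q)
    (hH : Subgroup.centralizer ({z} : Set G) ≤ Subgroup.normalClosure ({z} : Set G)) :
    IsSimpleGroup G := by
  obtain ⟨hL1, hL2, hL3, hL4⟩ := hlarge
  have hnt : Nontrivial G := ⟨⟨z, 1, hES.z_ne⟩⟩
  refine ⟨fun N hN => ?_⟩
  by_cases hN1 : N = ⊥
  · exact Or.inl hN1
  · right
    have hzN : z ∈ N := z_mem_of_normal hES hL2 hL3 hL4 N hN1
    have hM : Subgroup.normalClosure ({z} : Set G) ≤ N :=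
      Subgroup.normalClosure_le_normal (by simpa using hzN)
    have hQH : Q ≤ Subgroup.centralizer ({z} : Set G) :=
      fun q hq => Subgroup.mem_centralizer_singleton_iff.mpr (hES.z_comm q hq)
    have hfr := Cfsg.Agent.S5433.result Q ⟨hL1, hL2, hL3, hL4⟩ N (hQH.trans (hH.trans hM))
    have hNQ : Subgroup.normalizer (Q : Set G) ≤ N := by
      intro n hn
      apply hM; apply hH
      rw [Subgroup.mem_centralizer_singleton_iff]
      have h1 : n * z * n⁻¹ ∈ Q := (Subgroup.mem_normalizer_iff.mp hn z).mp hES.z_mem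
      have h2 : ∀ q ∈ Q, q * (n * z * n⁻¹) = (n * z * n⁻¹) * q := by
        intro q hq
        have h3 : n⁻¹ * q * n ∈ Q := by
          rw [Subgroup.mem_normalizer_iff.mp hn]
          have e : n * (n⁻¹ * q * n) * n⁻¹ = q := by group
          rw [e]; exact hq
        have h4 := hES.z_comm _ h3
        calc q * (n * z * n⁻¹) = n * ((n⁻¹ * q * n) * z) * n⁻¹ := by group
          _ = n * (z * (n⁻¹ * q * n)) * n⁻¹ := by rw [h4]
          _ = _ := by group
      rcases hES.center _ h1 h2 with h3 | h3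
      · exfalso
        apply hES.z_ne
        have := congrArg (fun w => n⁻¹ * w * n) h3
        simpa [mul_assoc] using this
      · calc n * z = (n * z * n⁻¹) * n := by group
          _ = z * n := by rw [h3]
    rw [eq_top_iff, ← hfr]
    exact sup_le le_rfl hNQ

end Cfsg.Agent.Lib.Helper90
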