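import Mathlib
import Cfsg.Prelude.Def_MonsterType
import Cfsg.Agent.Lib.Helper90.Setting
import Cfsg.Agent.S1570
import Cfsg.Agent.S0391
import Cfsg.Agent.S0392

set_option autoImplicit false

namespace Cfsg.Agent.Lib.Helper90

open Cfsg

/-- the transitivity properties of the automorphism group of the Leech lattice. -/
structure LeechTrans : Prop where
  t32 : ∀ v w : leechLattice, sqNorm (v : GolayPt → ℤ) = 32 → sqNorm (w : GolayPt → ℤ) = 32 →
    ∃ g : Co0, g • v = w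
  t48 : ∀ v w : leechLattice, sqNorm (v : GolayPt → ℤ) = 48 → sqNorm (w : GolayPt → ℤ) = 48 →
    ∃ g : Co0, g • v = w
  t64 : ∀ v w : leechLattice, sqNorm (v : GolayPt → ℤ) = 64 → sqNorm (w : GolayPt → ℤ) = 64 →
    ∃ g : Co0, ∃ u ∈ leechLattice,
      ((g • v : leechLattice) : GolayPt → ℤ) - (w : GolayPt → ℤ) = 2 • u

variable {G : Type*} [Group G] {z : G}

theorem z_mem_centralizer (z : G) : z ∈ Subgroup.centralizer ({z} : Set G) :=
  Subgroup.mem_centralizer_singleton_iff.mpr rfl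

/-- the extraspecial structure inside the centralizer. -/
theorem es_of_setting [Finite G] {Q : Subgroup (Subgroup.centralizer ({z} : Set G))} {w : ℕ}
    (h : IsExtraspecialCentralizerSetting z Q w) :
    ES Q (⟨z, z_mem_centralizer z⟩ : Subgroup.centralizer ({z} : Set G)) := by
  obtain ⟨hz, hF, hQ, -, -⟩ := h
  have hz1 : z ≠ 1 := by
    intro h; rw [h, orderOf_one] at hz; omega
  have hcen : (⟨z, z_mem_centralizer z⟩ : Subgroup.centralizer ({z} : Set G)) ∈
      Subgroup.center (Subgroup.centralizer ({z} : Set G)) := by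
    rw [Subgroup.mem_center_iff]
    intro c
    ext
    exact Subgroup.mem_centralizer_singleton_iff.mp c.2
  have hzQ : (⟨z, z_mem_centralizer z⟩ : Subgroup.centralizer ({z} : Set G)) ∈ Q := by
    rw [← hF]
    apply Cfsg.Agent.Lib.Helper29.fittingSubgroup_le_generalizedFittingSubgroup
    apply Cfsg.Agent.Lib.Helper29.center_le_fittingSubgroup
    exact hcen
  obtain ⟨z0, hES, -⟩ := ES.of_isExtraspecial hQ
  have hzz0 : (⟨z, z_mem_centralizer z⟩ : Subgroup.centralizer ({z} : Set G)) = z0 := by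
    have := hES.center _ hzQ (fun q _ => Subgroup.mem_center_iff.mp hcen q)
    refine this.resolve_left ?_
    intro h1
    exact hz1 (congrArg Subtype.val h1)
  rw [hzz0]
  exact hES

section

variable {Q : Subgroup (Subgroup.centralizer ({z} : Set G))} [Q.Normal]
  {e : (Subgroup.centralizer ({z} : Set G)) ⧸ Q ≃* Spor.Co1}
  {ψ : leechLattice → Q ⧸ Subgroup.center Q}

/-- `x ∈ Q` lies over the class of a lattice vector of squared length `N`. -/
def HasType (ψ : leechLattice → Q ⧸ Subgroup.center Q) (x : Q) (N : ℤ) : Prop :=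
  ∃ v : leechLattice, sqNorm (v : GolayPt → ℤ) = N ∧ ψ v = QuotientGroup.mk x

theorem psi_congr (hψ : IsLeechModTwoIso Q e ψ) {v w : leechLattice}
    (h : ∃ u ∈ leechLattice, (v : GolayPt → ℤ) - (w : GolayPt → ℤ) = 2 • u) : ψ v = ψ w := by
  obtain ⟨u, hu, huv⟩ := h
  have h1 : v = w + ((⟨u, hu⟩ : leechLattice) + ⟨u, hu⟩) := by
    ext1
    simp only [AddSubgroup.coe_add]
    rw [← two_nsmul, ← huv]
    abel
  rw [h1, hψ.1, (hψ.2.2.1 _).2 ⟨_, rfl⟩, mul_one]

theorem exists_type (hψ : IsLeechModTwoIso Q e ψ) (x : Q) :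
    x ∈ Subgroup.center Q ∨ HasType ψ x 32 ∨ HasType ψ x 48 ∨ HasType ψ x 64 := by
  obtain ⟨v, hv⟩ := hψ.2.1 (QuotientGroup.mk x)
  obtain ⟨y, hy, hyn, u, hu, huv⟩ := Cfsg.Agent.S1570.result (v : GolayPt → ℤ) v.2
  have h1 : ψ ⟨y, hy⟩ = QuotientGroup.mk x := by
    rw [← hv]
    exact (psi_congr hψ ⟨u, hu, huv⟩).symm
  by_cases hy0 : y = 0
  · left
    have h2 : ψ ⟨y, hy⟩ = 1 := by
      rw [hψ.2.2.1]
      refine ⟨0, ?_⟩
      ext1
      simp [hy0]
    rw [h1] at h2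
    exact (QuotientGroup.eq_one_iff x).mp h2
  · right
    have h3 := Cfsg.Agent.S0391.result y hy hy0
    obtain ⟨k, hk⟩ := Cfsg.Agent.S0392.result y hy
    have h4 : sqNorm y = 32 ∨ sqNorm y = 48 ∨ sqNorm y = 64 := by omega
    rcases h4 with h4 | h4 | h4
    · exact Or.inl ⟨⟨y, hy⟩, h4, h1⟩
    · exact Or.inr (Or.inl ⟨⟨y, hy⟩, h4, h1⟩)
    · exact Or.inr (Or.inr ⟨⟨y, hy⟩, h4, h1⟩)

/-- elements of the same type are conjugate modulo the centre. -/
theorem conj_mk_of_type (hT : LeechTrans) (hψ : IsLeechModTwoIso Q e ψ) {N : ℤ}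
    (hN : N = 32 ∨ N = 48 ∨ N = 64) {x y : Q} (hx : HasType ψ x N) (hy : HasType ψ y N) :
    ∃ h : Subgroup.centralizer ({z} : Set G),
      (QuotientGroup.mk ⟨h * x * h⁻¹, (inferInstance : Q.Normal).conj_mem _ x.2 h⟩ :
        Q ⧸ Subgroup.center Q) = QuotientGroup.mk y := by
  obtain ⟨v, hv, hvx⟩ := hx
  obtain ⟨w, hw, hwy⟩ := hy
  obtain ⟨g, hg⟩ : ∃ g : Co0, ψ (g • v) = ψ w := by
    rcases hN with rfl | rfl | rfl
    · obtain ⟨g, hg⟩ := hT.t32 v w hv hw
      exact ⟨g, by rw [hg]⟩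
    · obtain ⟨g, hg⟩ := hT.t48 v w hv hw
      exact ⟨g, by rw [hg]⟩
    · obtain ⟨g, u, hu, hg⟩ := hT.t64 v w hv hw
      exact ⟨g, psi_congr hψ ⟨u, hu, hg⟩⟩
  obtain ⟨h, hh⟩ := QuotientGroup.mk_surjective (e.symm (QuotientGroup.mk g : Spor.Co1))
  refine ⟨h, ?_⟩
  have h1 := hψ.2.2.2 h g (by rw [hh, MulEquiv.apply_symm_apply]) v x hvx
  rw [← h1, hg, hwy]

/-- elements of the same type are conjugate. -/
theorem conj_of_type [Finite G] (hES : ES Q (⟨z, z_mem_centralizer z⟩ : Subgroup.centralizer ({z} : Set G)))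
    (hT : LeechTrans) (hψ : IsLeechModTwoIso Q e ψ) {N : ℤ}
    (hN : N = 32 ∨ N = 48 ∨ N = 64) {x y : Q} (hx : HasType ψ x N) (hy : HasType ψ y N)
    (hyc : y ∉ Subgroup.center Q) :
    ∃ h : Subgroup.centralizer ({z} : Set G), h * x * h⁻¹ = y := by
  obtain ⟨h, hh⟩ := conj_mk_of_type hT hψ hN hx hy
  rw [QuotientGroup.eq] at hh
  obtain ⟨c, hc⟩ : ∃ c : Q, c = (⟨h * x * h⁻¹, (inferInstance : Q.Normal).conj_mem _ x.2 h⟩ : Q)⁻¹ * y :=
    ⟨_, rfl⟩
  rw [← hc] at hh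
  have hy_eq : (y : Subgroup.centralizer ({z} : Set G)) = h * x * h⁻¹ * c := by
    rw [hc]
    simp only [Subgroup.coe_mul, InvMemClass.coe_inv]
    group
  have hc2 := hES.center (c : Subgroup.centralizer ({z} : Set G)) c.2 (fun q hq => by
    have := Subgroup.mem_center_iff.mp hh ⟨q, hq⟩
    exact congrArg Subtype.val this)
  rcases hc2 with hc2 | hc2
  · exact ⟨h, by rw [hy_eq, hc2, mul_one]⟩
  · have hy1 : (y : Subgroup.centralizer ({z} : Set G)) ≠ 1 := by
      intro h1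
      apply hyc
      have : y = 1 := Subtype.ext h1
      rw [this]; exact Subgroup.one_mem _
    have hyz : (y : Subgroup.centralizer ({z} : Set G)) ≠ ⟨z, z_mem_centralizer z⟩ := by
      intro h1
      apply hyc
      rw [Subgroup.mem_center_iff]
      intro q
      ext1
      simp only [Subgroup.coe_mul]
      rw [h1]
      exact hES.z_comm q q.2
    obtain ⟨q, hq, hqy⟩ := hES.exists_conj y.2 hy1 hyz
    refine ⟨q⁻¹ * h, ?_⟩
    have h2 : h * x * h⁻¹ = (⟨z, z_mem_centralizer z⟩ : Subgroup.centralizer ({z} : Set G)) * y := by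
      rw [hy_eq, hc2]
      have h3 := hES.z_comm _ ((inferInstance : Q.Normal).conj_mem _ x.2 h)
      rw [h3, ← mul_assoc, hES.z_sq, one_mul]
    calc q⁻¹ * h * x * (q⁻¹ * h)⁻¹ = q⁻¹ * (h * x * h⁻¹) * q := by group
      _ = q⁻¹ * (q * y * q⁻¹) * q := by rw [h2, hqy]
      _ = y := by group

end

end Cfsg.Agent.Lib.Helper90
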