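import Mathlib
import Cfsg.Agent.Lib.Helper54.Co0Mon
import Cfsg.Agent.Lib.Helper54.Co0Gen
import Cfsg.Agent.S0391

set_option autoImplicit false

namespace Cfsg.Agent.Lib.Helper90

open Cfsg Cfsg.Agent.Lib.Helper7 Cfsg.Agent.Lib.Helper54

/-- vectors with all coordinates divisible by four and sum divisible by eight lie in the lattice. -/
theorem mem_leech_of_four_dvd (x : GolayPt → ℤ) (h4 : ∀ i, (4 : ℤ) ∣ x i)
    (h8 : (8 : ℤ) ∣ ∑ i, x i) : x ∈ leechLattice := by
  rw [mem_leechLattice_iff, mem_leechSet_iff]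
  refine ⟨0, fun i => ?_, ?_, ?_⟩
  · have := h4 i
    unfold Int.ModEq
    omega
  · unfold Int.ModEq
    omega
  · have : (Finset.univ.filter fun i => x i ≡ 0 + 2 [ZMOD 4]) = ∅ := by
      ext i
      simp only [Finset.mem_filter, Finset.mem_univ, true_and, Finset.notMem_empty, iff_false]
      have := h4 i
      unfold Int.ModEq
      omega
    rw [this]
    exact GC_empty

/-- the vector `c e_p + d e_q`. -/
def sv (p q : GolayPt) (c d : ℤ) : GolayPt → ℤ := Pi.single p c + Pi.single q d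

theorem sv_apply (p q : GolayPt) (c d : ℤ) (i : GolayPt) :
    sv p q c d i = (if i = p then c else 0) + (if i = q then d else 0) := by
  simp only [sv, Pi.add_apply, Pi.single_apply]

theorem dotInt_sv (x : GolayPt → ℤ) (p q : GolayPt) (c d : ℤ) :
    dotInt x (sv p q c d) = x p * c + x q * d := by
  unfold dotInt
  simp only [sv_apply, mul_add, mul_ite, mul_zero, Finset.sum_add_distrib, Finset.sum_ite_eq',
    Finset.mem_univ, if_true]

theorem sqNorm_eq_dotInt' (x : GolayPt → ℤ) : sqNorm x = dotInt x x := by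
  unfold sqNorm dotInt
  apply Finset.sum_congr rfl
  intro i _
  ring

theorem sqNorm_sv {p q : GolayPt} (hpq : p ≠ q) (c d : ℤ) : sqNorm (sv p q c d) = c * c + d * d := by
  rw [sqNorm_eq_dotInt', dotInt_sv, sv_apply, sv_apply]
  simp [hpq, hpq.symm]

theorem sv_mem (p q : GolayPt) (c d : ℤ) (hc : (4 : ℤ) ∣ c) (hd : (4 : ℤ) ∣ d) (h8 : (8 : ℤ) ∣ c + d) :
    sv p q c d ∈ leechLattice := by
  apply mem_leech_of_four_dvd
  · intro i
    rw [sv_apply]
    split_ifs <;> simp [hc, hd, dvd_add]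
  · have : ∑ i, sv p q c d i = c + d := by
      simp only [sv_apply, Finset.sum_add_distrib, Finset.sum_ite_eq', Finset.mem_univ, if_true]
    rw [this]; exact h8

/-- `4 e_p + 4 e_q`. -/
def wp (p q : GolayPt) : leechLattice := ⟨sv p q 4 4, sv_mem p q 4 4 (by norm_num) (by norm_num) (by norm_num)⟩

/-- `4 e_p - 4 e_q`. -/
def wm (p q : GolayPt) : leechLattice :=
  ⟨sv p q 4 (-4), sv_mem p q 4 (-4) (by norm_num) (by norm_num) (by norm_num)⟩

theorem coe_wp (p q : GolayPt) : ((wp p q : leechLattice) : GolayPt → ℤ) = sv p q 4 4 := rfl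
theorem coe_wm (p q : GolayPt) : ((wm p q : leechLattice) : GolayPt → ℤ) = sv p q 4 (-4) := rfl

theorem dotInt_neg_right'' (x y : GolayPt → ℤ) : dotInt x (-y) = - dotInt x y := by
  unfold dotInt
  simp only [Pi.neg_apply, mul_neg, Finset.sum_neg_distrib]

/-- propagation of the sign along non-orthogonal vectors. -/
theorem fix_of_link (n : Co0) {w1 w2 : leechLattice}
    (h2 : n • w2 = w2 ∨ n • w2 = -w2)
    (hd : dotInt (w1 : GolayPt → ℤ) (w2 : GolayPt → ℤ) ≠ 0) (h1 : n • w1 = w1) : n • w2 = w2 := by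
  rcases h2 with h2 | h2
  · exact h2
  · exfalso
    have := co0_dotInt n w1 w2
    rw [h1, h2, AddSubgroup.coe_neg, dotInt_neg_right''] at this
    omega


theorem exists_notMem_six (a b c d e f : GolayPt) :
    ∃ r : GolayPt, r ≠ a ∧ r ≠ b ∧ r ≠ c ∧ r ≠ d ∧ r ≠ e ∧ r ≠ f := by
  have h1 : ({a, b, c, d, e, f} : Finset GolayPt).card < (Finset.univ : Finset GolayPt).card := by
    have : (Finset.univ : Finset GolayPt).card = 24 := by decide
    rw [this]
    exact lt_of_le_of_lt Finset.card_le_six (by norm_num)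
  obtain ⟨r, -, hr⟩ := Finset.exists_mem_notMem_of_card_lt_card h1
  simp only [Finset.mem_insert, Finset.mem_singleton, not_or] at hr
  exact ⟨r, hr.1, hr.2.1, hr.2.2.1, hr.2.2.2.1, hr.2.2.2.2.1, hr.2.2.2.2.2⟩

/-- if one of the vectors `4 e_p + 4 e_q` off `{a, b}` is fixed then all `4 e_p ± 4 e_q` are. -/
theorem fix_all_of_fix_one (n : Co0) (a b : GolayPt)
    (hp : ∀ p q : GolayPt, p ≠ q → p ≠ a → p ≠ b → q ≠ a → q ≠ b →
      (n • wp p q = wp p q ∨ n • wp p q = - wp p q))
    (hm : ∀ p q : GolayPt, p ≠ q → p ≠ a → p ≠ b → q ≠ a → q ≠ b →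
      (n • wm p q = wm p q ∨ n • wm p q = - wm p q))
    {p0 q0 : GolayPt} (h0 : p0 ≠ q0) (hp0a : p0 ≠ a) (hp0b : p0 ≠ b)
    (hfix : n • wp p0 q0 = wp p0 q0) :
    ∀ p q : GolayPt, p ≠ q → p ≠ a → p ≠ b → q ≠ a → q ≠ b →
      n • wp p q = wp p q ∧ n • wm p q = wm p q := by
  intro p q hpq hpa hpb hqa hqb
  obtain ⟨r, hra, hrb, hrp, hrq, hrp0, hrq0⟩ := exists_notMem_six a b p q p0 q0
  have s1 : n • wp p0 r = wp p0 r := by
    apply fix_of_link n (hp p0 r hrp0.symm hp0a hp0b hra hrb) _ hfix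
    rw [coe_wp, coe_wp, dotInt_sv, sv_apply, sv_apply]
    simp [h0, hrp0, hrq0]
  have s2 : n • wp r p = wp r p := by
    apply fix_of_link n (hp r p hrp hra hrb hpa hpb) _ s1
    rw [coe_wp, coe_wp, dotInt_sv, sv_apply, sv_apply]
    by_cases h : p = p0
    · simp [h, hrp0, hrp0.symm]
    · simp [h, hrp0, hrp.symm]
  constructor
  · apply fix_of_link n (hp p q hpq hpa hpb hqa hqb) _ s2
    rw [coe_wp, coe_wp, dotInt_sv, sv_apply, sv_apply]
    simp [hrp.symm, hrq.symm, hpq.symm]
  · apply fix_of_link n (hm p q hpq hpa hpb hqa hqb) _ s2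
    rw [coe_wp, coe_wm, dotInt_sv, sv_apply, sv_apply]
    simp [hrp.symm, hrq.symm, hpq.symm]

theorem coord_of_fix (n : Co0) {p q : GolayPt} (h1 : n • wp p q = wp p q)
    (h2 : n • wm p q = wm p q) (x : leechLattice) :
    ((n • x : leechLattice) : GolayPt → ℤ) p = (x : GolayPt → ℤ) p := by
  have e1 := co0_dotInt n x (wp p q)
  have e2 := co0_dotInt n x (wm p q)
  rw [h1, coe_wp, dotInt_sv, dotInt_sv] at e1
  rw [h2, coe_wm, dotInt_sv, dotInt_sv] at e2
  omega

theorem co0_ext {n m : Co0} (h : ∀ x : leechLattice, n • x = m • x) : n = m :=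
  Subtype.ext (Equiv.ext h)

theorem eq_one_of_coords (n : Co0) {a b : GolayPt} (hab : a ≠ b)
    (hc : ∀ x : leechLattice, ∀ p, p ≠ a → p ≠ b →
      ((n • x : leechLattice) : GolayPt → ℤ) p = (x : GolayPt → ℤ) p)
    (hv : n • wm b a = wm b a ∨ n • wm b a = - wm b a)
    (hu : n • wp a b = wp a b ∨ n • wp a b = - wp a b)
    (x0 : leechLattice) (hx0a : (x0 : GolayPt → ℤ) a = 2) (hx0b : (x0 : GolayPt → ℤ) b = 0) :
    n = 1 := by
  have key : ∀ x : leechLattice,
      (dotInt ((n • x : leechLattice) : GolayPt → ℤ) (sv b a 4 (-4)) = dotInt (x : GolayPt → ℤ) (sv b a 4 (-4)) ∨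
       - dotInt ((n • x : leechLattice) : GolayPt → ℤ) (sv b a 4 (-4)) = dotInt (x : GolayPt → ℤ) (sv b a 4 (-4))) := by
    intro x
    have e1 := co0_dotInt n x (wm b a)
    rcases hv with hv | hv
    · left; rw [hv, coe_wm] at e1; exact e1
    · right; rw [hv, AddSubgroup.coe_neg, dotInt_neg_right'', coe_wm] at e1; exact e1
  -- the difference vector
  have hd : ((n • x0 - x0 : leechLattice) : GolayPt → ℤ) =
      sv a b (((n • x0 : leechLattice) : GolayPt → ℤ) a - 2) (((n • x0 : leechLattice) : GolayPt → ℤ) b) := by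
    funext i
    rw [sv_apply]
    simp only [AddSubgroup.coe_sub, Pi.sub_apply]
    by_cases hia : i = a
    · subst hia
      simp [hab, hx0a]
    · by_cases hib : i = b
      · subst hib
        simp [hia, hx0b]
      · simp [hia, hib, hc x0 i hia hib]
  have hmin : ((n • x0 : leechLattice) : GolayPt → ℤ) a ≠ 2 → False := by
    intro hne
    have h0 : ((n • x0 - x0 : leechLattice) : GolayPt → ℤ) ≠ 0 := by
      intro h
      have := congrFun h a
      rw [hd, sv_apply] at this
      simp [hab] at this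
      omega
    have h32 := Cfsg.Agent.S0391.result _ (n • x0 - x0 : leechLattice).2 h0
    rw [hd, sqNorm_sv hab] at h32
    have e1 := co0_dotInt n x0 (wm b a)
    have e2 := co0_dotInt n x0 (wp a b)
    rcases hv with hv | hv <;> rcases hu with hu | hu
    · rw [hv, coe_wm, dotInt_sv, dotInt_sv] at e1
      rw [hu, coe_wp, dotInt_sv, dotInt_sv] at e2
      omega
    · rw [hv, coe_wm, dotInt_sv, dotInt_sv] at e1
      rw [hu, AddSubgroup.coe_neg, dotInt_neg_right'', coe_wp, dotInt_sv, dotInt_sv] at e2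
      have ha : ((n • x0 : leechLattice) : GolayPt → ℤ) a = 0 := by omega
      have hb : ((n • x0 : leechLattice) : GolayPt → ℤ) b = -2 := by omega
      rw [ha, hb] at h32
      norm_num at h32
    · rw [hv, AddSubgroup.coe_neg, dotInt_neg_right'', coe_wm, dotInt_sv, dotInt_sv] at e1
      rw [hu, coe_wp, dotInt_sv, dotInt_sv] at e2
      have ha : ((n • x0 : leechLattice) : GolayPt → ℤ) a = 0 := by omega
      have hb : ((n • x0 : leechLattice) : GolayPt → ℤ) b = 2 := by omega
      rw [ha, hb] at h32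
      norm_num at h32
    · rw [hv, AddSubgroup.coe_neg, dotInt_neg_right'', coe_wm, dotInt_sv, dotInt_sv] at e1
      rw [hu, AddSubgroup.coe_neg, dotInt_neg_right'', coe_wp, dotInt_sv, dotInt_sv] at e2
      have ha : ((n • x0 : leechLattice) : GolayPt → ℤ) a = -2 := by omega
      have hb : ((n • x0 : leechLattice) : GolayPt → ℤ) b = 0 := by omega
      rw [ha, hb] at h32
      norm_num at h32
  have hya : ((n • x0 : leechLattice) : GolayPt → ℤ) a = 2 := by
    by_contra h
    exact hmin h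
  -- hence both signs are plus
  have e1 := co0_dotInt n x0 (wm b a)
  have e2 := co0_dotInt n x0 (wp a b)
  have hv' : n • wm b a = wm b a := by
    rcases hv with hv | hv
    · exact hv
    · exfalso
      rcases hu with hu | hu
      · rw [hv, AddSubgroup.coe_neg, dotInt_neg_right'', coe_wm, dotInt_sv, dotInt_sv] at e1
        rw [hu, coe_wp, dotInt_sv, dotInt_sv] at e2
        omega
      · rw [hv, AddSubgroup.coe_neg, dotInt_neg_right'', coe_wm, dotInt_sv, dotInt_sv] at e1
        rw [hu, AddSubgroup.coe_neg, dotInt_neg_right'', coe_wp, dotInt_sv, dotInt_sv] at e2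
        omega
  have hu' : n • wp a b = wp a b := by
    rcases hu with hu | hu
    · exact hu
    · exfalso
      rw [hv', coe_wm, dotInt_sv, dotInt_sv] at e1
      rw [hu, AddSubgroup.coe_neg, dotInt_neg_right'', coe_wp, dotInt_sv, dotInt_sv] at e2
      omega
  apply co0_ext
  intro x
  rw [one_smul]
  apply Subtype.ext
  funext i
  have f1 := co0_dotInt n x (wm b a)
  have f2 := co0_dotInt n x (wp a b)
  rw [hv', coe_wm, dotInt_sv, dotInt_sv] at f1
  rw [hu', coe_wp, dotInt_sv, dotInt_sv] at f2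
  by_cases hia : i = a
  · subst hia; omega
  · by_cases hib : i = b
    · subst hib; omega
    · exact hc x i hia hib

theorem negCo0_mul_self : negCo0 * negCo0 = 1 := by
  apply co0_ext
  intro x
  rw [mul_smul, negCo0_smul, negCo0_smul, neg_neg, one_smul]

theorem negCo0_comm (g : Co0) : negCo0 * g = g * negCo0 := by
  apply co0_ext
  intro x
  rw [mul_smul, mul_smul, negCo0_smul, negCo0_smul, co0_neg]

theorem negCo0_mem_center : negCo0 ∈ Subgroup.center Co0 := by
  rw [Subgroup.mem_center_iff]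
  intro g
  exact (negCo0_comm g).symm

/-- an automorphism fixing up to sign `4 e_b - 4 e_a` and all the minimal vectors orthogonal to it
is `± 1`. -/
theorem pm_one_of_fix_pairs_aux (n : Co0) {a b : GolayPt} (hab : a ≠ b)
    (x0 : leechLattice) (hx0a : (x0 : GolayPt → ℤ) a = 2) (hx0b : (x0 : GolayPt → ℤ) b = 0)
    (hv : n • wm b a = wm b a ∨ n • wm b a = - wm b a)
    (hX : ∀ w : leechLattice, sqNorm (w : GolayPt → ℤ) = 32 →
      dotInt ((wm b a : leechLattice) : GolayPt → ℤ) (w : GolayPt → ℤ) = 0 → n • w = w ∨ n • w = -w) :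
    n = 1 ∨ n = negCo0 := by
  have hp : ∀ p q : GolayPt, p ≠ q → p ≠ a → p ≠ b → q ≠ a → q ≠ b →
      (n • wp p q = wp p q ∨ n • wp p q = - wp p q) := by
    intro p q hpq hpa hpb hqa hqb
    apply hX
    · rw [coe_wp, sqNorm_sv hpq]; norm_num
    · rw [coe_wm, coe_wp, dotInt_sv, sv_apply, sv_apply]
      simp [hpa, hpb, hqa, hqb]
  have hm : ∀ p q : GolayPt, p ≠ q → p ≠ a → p ≠ b → q ≠ a → q ≠ b →
      (n • wm p q = wm p q ∨ n • wm p q = - wm p q) := by
    intro p q hpq hpa hpb hqa hqb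
    apply hX
    · rw [coe_wm, sqNorm_sv hpq]; norm_num
    · rw [coe_wm, coe_wm, dotInt_sv, sv_apply, sv_apply]
      simp [hpa, hpb, hqa, hqb]
  have hu : n • wp a b = wp a b ∨ n • wp a b = - wp a b := by
    apply hX
    · rw [coe_wp, sqNorm_sv hab]; norm_num
    · rw [coe_wm, coe_wp, dotInt_sv, sv_apply, sv_apply]
      simp [hab, hab.symm]
  obtain ⟨p0, hp0a, hp0b, -, -, -, -⟩ := exists_notMem_six a b a a a a
  obtain ⟨q0, hq0a, hq0b, hq0p, -, -, -⟩ := exists_notMem_six a b p0 a a a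
  -- the general step
  have main : ∀ m : Co0, (∀ p q : GolayPt, p ≠ q → p ≠ a → p ≠ b → q ≠ a → q ≠ b →
      (m • wp p q = wp p q ∨ m • wp p q = - wp p q)) →
      (∀ p q : GolayPt, p ≠ q → p ≠ a → p ≠ b → q ≠ a → q ≠ b →
      (m • wm p q = wm p q ∨ m • wm p q = - wm p q)) →
      (m • wm b a = wm b a ∨ m • wm b a = - wm b a) →
      (m • wp a b = wp a b ∨ m • wp a b = - wp a b) → m • wp p0 q0 = wp p0 q0 → m = 1 := by
    intro m hp hm hv hu hfix
    have hall := fix_all_of_fix_one m a b hp hm hq0p.symm hp0a hp0b hfix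
    apply eq_one_of_coords m hab _ hv hu x0 hx0a hx0b
    intro x p hpa hpb
    obtain ⟨q, hqa, hqb, hqp, -, -, -⟩ := exists_notMem_six a b p a a a
    obtain ⟨h1, h2⟩ := hall p q hqp.symm hpa hpb hqa hqb
    exact coord_of_fix m h1 h2 x
  have flip : ∀ w : leechLattice, (n • w = w ∨ n • w = -w) →
      ((negCo0 * n) • w = w ∨ (negCo0 * n) • w = -w) := by
    intro w hw
    rw [mul_smul, negCo0_smul]
    rcases hw with hw | hw
    · right; rw [hw]
    · left; rw [hw, neg_neg]
  rcases hp p0 q0 hq0p.symm hp0a hp0b hq0a hq0b with h | h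
  · left
    exact main n hp hm hv hu h
  · right
    have h1 : negCo0 * n = 1 := by
      apply main (negCo0 * n)
      · intro p q h1 h2 h3 h4 h5; exact flip _ (hp p q h1 h2 h3 h4 h5)
      · intro p q h1 h2 h3 h4 h5; exact flip _ (hm p q h1 h2 h3 h4 h5)
      · exact flip _ hv
      · exact flip _ hu
      · rw [mul_smul, negCo0_smul, h, neg_neg]
    calc n = (negCo0 * negCo0) * n := by rw [negCo0_mul_self, one_mul]
      _ = negCo0 * (negCo0 * n) := by rw [mul_assoc]
      _ = negCo0 := by rw [h1, mul_one]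

/-- the vector `2` on the squares modulo `23`. -/
def qrFn : ℕ → ℤ := fun i => if Nat.testBit 340831 i = true then 2 else 0

theorem qrFn_leech : isLeechFn qrFn = true := by decide +kernel

/-- the lattice vector `2` on the squares modulo `23`. -/
def qrVec : leechLattice := ⟨vecOf qrFn, vecOf_mem_of_isLeechFn qrFn_leech⟩

theorem qrVec_zero : (qrVec : GolayPt → ℤ) (some 0) = 2 := by decide +kernel

theorem qrVec_none : (qrVec : GolayPt → ℤ) none = 0 := by decide +kernel

/-- an automorphism fixing up to sign a minimal vector `v` and all the minimal vectors orthogonal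
to it is `± 1`. -/
theorem pm_one_of_fix_pairs
    (ht : ∀ v w : leechLattice, sqNorm (v : GolayPt → ℤ) = 32 → sqNorm (w : GolayPt → ℤ) = 32 →
      ∃ g : Co0, g • v = w)
    (v : leechLattice) (hvn : sqNorm (v : GolayPt → ℤ) = 32) (n : Co0)
    (hv : n • v = v ∨ n • v = - v)
    (hX : ∀ w : leechLattice, sqNorm (w : GolayPt → ℤ) = 32 →
      dotInt (v : GolayPt → ℤ) (w : GolayPt → ℤ) = 0 → n • w = w ∨ n • w = -w) :
    n = 1 ∨ n = negCo0 := by
  have hab : (some 0 : GolayPt) ≠ none := by decide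
  obtain ⟨g, hg⟩ := ht v (wm none (some 0)) hvn (by rw [coe_wm, sqNorm_sv hab.symm]; norm_num)
  have tr : ∀ w : leechLattice, (n • (g⁻¹ • w) = g⁻¹ • w ∨ n • (g⁻¹ • w) = - (g⁻¹ • w)) →
      ((g * n * g⁻¹) • w = w ∨ (g * n * g⁻¹) • w = -w) := by
    intro w hw
    rw [mul_smul, mul_smul]
    rcases hw with hw | hw
    · left; rw [hw, smul_inv_smul]
    · right; rw [hw, co0_neg, smul_inv_smul]
  have hgv : g⁻¹ • wm none (some 0) = v := by rw [← hg, inv_smul_smul]
  have h1 := pm_one_of_fix_pairs_aux (g * n * g⁻¹) hab qrVec qrVec_zero qrVec_none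
    (tr _ (by rw [hgv]; exact hv)) (by
      intro w hw hd
      apply tr
      apply hX
      · rw [co0_sqNorm]; exact hw
      · have := co0_dotInt g v (g⁻¹ • w)
        rw [smul_inv_smul, hg] at this
        rw [← this]; exact hd)
  rcases h1 with h1 | h1
  · left
    calc n = g⁻¹ * (g * n * g⁻¹) * g := by group
      _ = 1 := by rw [h1]; group
  · right
    calc n = g⁻¹ * (g * n * g⁻¹) * g := by group
      _ = g⁻¹ * (negCo0 * g) := by rw [h1, mul_assoc]
      _ = negCo0 := by rw [negCo0_comm]; group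

end Cfsg.Agent.Lib.Helper90
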