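import Mathlib
import Cfsg.Agent.Lib.Helper90.Monster5
import Cfsg.Agent.S5592

set_option autoImplicit false

namespace Cfsg.Agent.Lib.Helper90

open Cfsg Cfsg.Agent.Lib.Helper7 Cfsg.Agent.Lib.Helper54
open scoped Pointwise

/-- the first half of the determination of the stabiliser of the standard cross. -/
def MonHyp : Prop :=
  ∀ g : ↥Co0, (∀ v : ↥leechLattice, (v : GolayPt → ℤ) ∈ stdCross →
    ((g • v : ↥leechLattice) : GolayPt → ℤ) ∈ stdCross) →
    ∃ f ∈ golayMonomialMaps, ∀ v : ↥leechLattice, ((g • v : ↥leechLattice) : GolayPt → ℤ) = f (v : GolayPt → ℤ)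

/-- the coordinate permutation attached to an element of `M24`. -/
def permCo0 (σ : M24) : Co0 := monCo0 σ.1 σ.2 ∅ GC_empty

theorem permCo0_smul (σ : M24) (v : leechLattice) (i : GolayPt) :
    ((permCo0 σ • v : leechLattice) : GolayPt → ℤ) i = (v : GolayPt → ℤ) ((σ : Equiv.Perm GolayPt).symm i) := by
  unfold permCo0
  rw [monCo0_smul]
  simp [signedPerm]

/-- the sign change on a codeword. -/
def signCo0 (c : Finset GolayPt) (hc : c ∈ GC) : Co0 := monCo0 1 M24.one_mem c hc

theorem signCo0_smul (c : Finset GolayPt) (hc : c ∈ GC) (v : leechLattice) (i : GolayPt) :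
    ((signCo0 c hc • v : leechLattice) : GolayPt → ℤ) i =
      if i ∈ c then - (v : GolayPt → ℤ) i else (v : GolayPt → ℤ) i := by
  unfold signCo0
  rw [monCo0_smul]
  rfl

theorem co0_ext' {n m : Co0}
    (h : ∀ (x : leechLattice) (i : GolayPt), ((n • x : leechLattice) : GolayPt → ℤ) i =
      ((m • x : leechLattice) : GolayPt → ℤ) i) : n = m :=
  co0_ext (fun x => Subtype.ext (funext (h x)))

/-- the coordinate permutations, as a homomorphism. -/
def permHom : M24 →* Co0 where
  toFun := permCo0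
  map_one' := by
    apply co0_ext'
    intro x i
    rw [permCo0_smul, one_smul]
    rfl
  map_mul' := by
    intro σ τ
    apply co0_ext'
    intro x i
    rw [mul_smul, permCo0_smul, permCo0_smul, permCo0_smul]
    rfl

theorem permHom_apply (σ : M24) : permHom σ = permCo0 σ := rfl

theorem monCo0_eq (σ : Equiv.Perm GolayPt) (hσ : σ ∈ M24) (c : Finset GolayPt) (hc : c ∈ GC) :
    monCo0 σ hσ c hc = signCo0 c hc * permCo0 ⟨σ, hσ⟩ := by
  apply co0_ext'
  intro x i
  rw [mul_smul, signCo0_smul, permCo0_smul, monCo0_smul]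
  rfl

theorem signCo0_mul (c d : Finset GolayPt) (hc : c ∈ GC) (hd : d ∈ GC) :
    signCo0 c hc * signCo0 d hd = signCo0 (symmDiff c d) (GC_symmDiff hc hd) := by
  apply co0_ext'
  intro x i
  rw [mul_smul, signCo0_smul, signCo0_smul, signCo0_smul]
  by_cases h1 : i ∈ c <;> by_cases h2 : i ∈ d <;> simp [h1, h2, Finset.mem_symmDiff]

theorem signCo0_empty : signCo0 ∅ GC_empty = 1 := by
  apply co0_ext'
  intro x i
  rw [signCo0_smul, one_smul]
  simp

theorem signCo0_univ : signCo0 Finset.univ GC_univ = negCo0 := by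
  apply co0_ext'
  intro x i
  rw [signCo0_smul, negCo0_smul]
  simp

theorem signCo0_mul_self (c : Finset GolayPt) (hc : c ∈ GC) : signCo0 c hc * signCo0 c hc = 1 := by
  apply co0_ext'
  intro x i
  rw [mul_smul, signCo0_smul, signCo0_smul, one_smul]
  by_cases h1 : i ∈ c <;> simp [h1]

/-- the group of sign changes on codewords. -/
def signGroup : Subgroup Co0 where
  carrier := {n | ∃ (c : Finset GolayPt) (hc : c ∈ GC), n = signCo0 c hc}
  one_mem' := ⟨∅, GC_empty, signCo0_empty.symm⟩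
  mul_mem' := by
    rintro _ _ ⟨c, hc, rfl⟩ ⟨d, hd, rfl⟩
    exact ⟨_, _, signCo0_mul c d hc hd⟩
  inv_mem' := by
    rintro _ ⟨c, hc, rfl⟩
    exact ⟨c, hc, inv_eq_of_mul_eq_one_right (signCo0_mul_self c hc)⟩

theorem mem_signGroup (n : Co0) : n ∈ signGroup ↔ ∃ (c : Finset GolayPt) (hc : c ∈ GC), n = signCo0 c hc :=
  Iff.rfl

theorem perm_mul_sign (σ : M24) (c : Finset GolayPt) (hc : c ∈ GC) :
    permCo0 σ * signCo0 c hc =
      signCo0 ((σ : Equiv.Perm GolayPt) • c) (Cfsg.Agent.Lib.Helper27.smul_mem_supports σ.2 hc) * permCo0 σ := by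
  apply co0_ext'
  intro x i
  rw [mul_smul, mul_smul, permCo0_smul, signCo0_smul, signCo0_smul, permCo0_smul]
  have : i ∈ (σ : Equiv.Perm GolayPt) • c ↔ (σ : Equiv.Perm GolayPt).symm i ∈ c := by
    rw [← Finset.inv_smul_mem_iff]
    rfl
  simp only [this]

theorem isPGroup_signGroup : IsPGroup 2 signGroup := by
  rintro ⟨_, c, hc, rfl⟩
  refine ⟨1, ?_⟩
  apply Subtype.ext
  simp only [pow_one, SubmonoidClass.coe_pow, OneMemClass.coe_one]
  rw [pow_two]
  exact signCo0_mul_self c hc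

/-- `8 e_p`. -/
def e8 (p : GolayPt) : leechLattice :=
  ⟨sv p p 4 4, sv_mem p p 4 4 (by norm_num) (by norm_num) (by norm_num)⟩

theorem e8_apply (p i : GolayPt) : (e8 p : GolayPt → ℤ) i = if i = p then 8 else 0 := by
  show sv p p 4 4 i = _
  rw [sv_apply]
  split_ifs <;> norm_num

theorem coe_e8 (p : GolayPt) : (e8 p : GolayPt → ℤ) = Pi.single p 8 := by
  funext i
  rw [e8_apply, Pi.single_apply]

theorem dotInt_e8 (x : GolayPt → ℤ) (p : GolayPt) : dotInt x (e8 p : GolayPt → ℤ) = 8 * x p := by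
  show dotInt x (sv p p 4 4) = _
  rw [dotInt_sv]; ring

theorem sqNorm_e8 (p : GolayPt) : sqNorm (e8 p : GolayPt → ℤ) = 64 := by
  rw [sqNorm_eq_dotInt', dotInt_e8, e8_apply]
  simp

theorem e8_congr (p q : GolayPt) :
    ∃ u ∈ leechLattice, (e8 p : GolayPt → ℤ) - (e8 q : GolayPt → ℤ) = 2 • u := by
  refine ⟨_, (wm p q).2, ?_⟩
  funext i
  rw [coe_wm]
  simp only [Pi.sub_apply, e8_apply, Pi.smul_apply, sv_apply, nsmul_eq_mul]
  split_ifs <;> norm_num

/-- lattice vectors of squared length `64` congruent to `8 e_p` lie in the standard cross. -/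
theorem mem_stdCross_of_congr (y : leechLattice) (hy : sqNorm (y : GolayPt → ℤ) = 64) (p0 : GolayPt)
    (hc : ∃ u ∈ leechLattice, (y : GolayPt → ℤ) - (e8 p0 : GolayPt → ℤ) = 2 • u) :
    ∃ p, y = e8 p ∨ y = - e8 p := by
  by_contra hcon
  push Not at hcon
  have h0 : ∀ p, (y : GolayPt → ℤ) p = 0 := by
    intro p
    have hc' : ∃ u ∈ leechLattice, (y : GolayPt → ℤ) - (e8 p : GolayPt → ℤ) = 2 • u := by
      obtain ⟨u, hu, h1⟩ := hc
      obtain ⟨u', hu', h2⟩ := e8_congr p0 p
      refine ⟨u + u', leechLattice.add_mem hu hu', ?_⟩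
      rw [smul_add, ← h1, ← h2]; abel
    have h1 := Cfsg.Agent.S5592.result _ _ y.2 (e8 p).2
      (fun h => (hcon p).1 (Subtype.ext h)) (by omega) (by rw [sqNorm_e8]) hc'
    rcases h1 with h1 | ⟨-, -, h1⟩
    · exact absurd (Subtype.ext h1) (hcon p).2
    · rw [dotInt_e8] at h1
      omega
  have : (y : GolayPt → ℤ) = 0 := funext h0
  rw [this] at hy
  simp [sqNorm] at hy

/-- congruence modulo twice the lattice. -/
def Cong (a b : leechLattice) : Prop :=
  ∃ u ∈ leechLattice, (a : GolayPt → ℤ) - (b : GolayPt → ℤ) = 2 • u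

theorem Cong.refl (a : leechLattice) : Cong a a := ⟨0, leechLattice.zero_mem, by simp⟩

theorem Cong.symm {a b : leechLattice} (h : Cong a b) : Cong b a := by
  obtain ⟨u, hu, h1⟩ := h
  refine ⟨-u, leechLattice.neg_mem hu, ?_⟩
  rw [smul_neg, ← h1]; abel

theorem Cong.trans {a b c : leechLattice} (h : Cong a b) (h' : Cong b c) : Cong a c := by
  obtain ⟨u, hu, h1⟩ := h
  obtain ⟨u', hu', h2⟩ := h'
  refine ⟨u + u', leechLattice.add_mem hu hu', ?_⟩
  rw [smul_add, ← h1, ← h2]; abel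

theorem Cong.smul {a b : leechLattice} (h : Cong a b) (n : Co0) : Cong (n • a) (n • b) := by
  obtain ⟨u, hu, h1⟩ := h
  refine ⟨_, (n • (⟨u, hu⟩ : leechLattice)).2, ?_⟩
  have h2 : a - b = (⟨u, hu⟩ : leechLattice) + ⟨u, hu⟩ := by
    apply Subtype.ext
    simp only [AddSubgroup.coe_sub, AddSubgroup.coe_add]
    rw [h1, two_nsmul]
  have h3 : n • a - n • b = n • (⟨u, hu⟩ : leechLattice) + n • (⟨u, hu⟩ : leechLattice) := by
    rw [← co0_sub, h2, co0_add]
  have h4 := congrArg Subtype.val h3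
  simp only [AddSubgroup.coe_sub, AddSubgroup.coe_add] at h4
  rw [h4, two_nsmul]

theorem cong_neg (a : leechLattice) : Cong (-a) a := by
  refine ⟨_, (-a).2, ?_⟩
  simp only [AddSubgroup.coe_neg]
  rw [two_nsmul]; abel

theorem e8_cong (p q : GolayPt) : Cong (e8 p) (e8 q) := e8_congr p q

theorem permCo0_e8 (σ : M24) (p : GolayPt) : permCo0 σ • e8 p = e8 ((σ : Equiv.Perm GolayPt) p) := by
  apply Subtype.ext
  funext i
  rw [permCo0_smul, e8_apply, e8_apply]
  have : (σ : Equiv.Perm GolayPt).symm i = p ↔ i = (σ : Equiv.Perm GolayPt) p := by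
    rw [Equiv.symm_apply_eq]
  simp only [this]

theorem signCo0_e8 (c : Finset GolayPt) (hc : c ∈ GC) (p : GolayPt) :
    signCo0 c hc • e8 p = e8 p ∨ signCo0 c hc • e8 p = - e8 p := by
  by_cases hp : p ∈ c
  · right
    apply Subtype.ext
    funext i
    rw [signCo0_smul, AddSubgroup.coe_neg, Pi.neg_apply, e8_apply]
    by_cases hi : i = p
    · subst hi; simp [hp]
    · simp [hi]
  · left
    apply Subtype.ext
    funext i
    rw [signCo0_smul, e8_apply]
    by_cases hi : i = p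
    · subst hi; simp [hp]
    · simp [hi]

theorem cong_perm (σ : M24) (p : GolayPt) : Cong (permCo0 σ • e8 p) (e8 p) := by
  rw [permCo0_e8]; exact e8_cong _ _

theorem cong_sign (c : Finset GolayPt) (hc : c ∈ GC) (p : GolayPt) :
    Cong (signCo0 c hc • e8 p) (e8 p) := by
  rcases signCo0_e8 c hc p with h | h
  · rw [h]; exact Cong.refl _
  · rw [h]; exact cong_neg _

/-- the stabiliser of the class of `8 e_p` consists of monomial elements. -/
theorem monomial_of_cong (hMon : MonHyp) (n : Co0) (p0 : GolayPt) (hc : Cong (n • e8 p0) (e8 p0)) :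
    ∃ (c : Finset GolayPt) (hc : c ∈ GC) (σ : M24), n = signCo0 c hc * permCo0 σ := by
  have key : ∀ i, ∃ p, n • e8 i = e8 p ∨ n • e8 i = - e8 p := by
    intro i
    apply mem_stdCross_of_congr _ (by rw [co0_sqNorm, sqNorm_e8]) p0
    exact ((e8_cong i p0).smul n).trans hc
  obtain ⟨f, ⟨σ, hσ, c, hc, rfl⟩, hf⟩ := hMon n (by
    rintro v ⟨i, s, hs, hv⟩
    obtain ⟨p, hp⟩ := key i
    rcases hs with rfl | rfl
    · have hv' : v = e8 i := Subtype.ext (by rw [hv, coe_e8])
      rw [hv']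
      rcases hp with hp | hp
      · rw [hp]; exact ⟨p, 8, Or.inl rfl, coe_e8 p⟩
      · rw [hp]
        refine ⟨p, -8, Or.inr rfl, ?_⟩
        rw [AddSubgroup.coe_neg, coe_e8, ← Pi.single_neg]
    · have hv' : v = - e8 i := Subtype.ext (by rw [hv, AddSubgroup.coe_neg, coe_e8, ← Pi.single_neg])
      rw [hv', co0_neg]
      rcases hp with hp | hp
      · rw [hp]
        refine ⟨p, -8, Or.inr rfl, ?_⟩
        rw [AddSubgroup.coe_neg, coe_e8, ← Pi.single_neg]
      · rw [hp, neg_neg]; exact ⟨p, 8, Or.inl rfl, coe_e8 p⟩)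
  refine ⟨c, hc, ⟨σ, hσ⟩, ?_⟩
  rw [← monCo0_eq]
  apply co0_ext
  intro x
  apply Subtype.ext
  rw [hf, monCo0_smul]

theorem e8_injective {p q : GolayPt} (h : e8 p = e8 q ∨ e8 p = - e8 q) : p = q := by
  by_contra hpq
  rcases h with h | h
  · have := congrFun (congrArg Subtype.val h) p
    rw [e8_apply, e8_apply] at this
    simp [hpq] at this
  · have := congrFun (congrArg Subtype.val h) p
    rw [AddSubgroup.coe_neg, Pi.neg_apply, e8_apply, e8_apply] at this
    simp [hpq] at this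

/-- a coordinate permutation which is a sign change is trivial. -/
theorem perm_eq_one_of_mem_signGroup (σ : M24) (h : permCo0 σ ∈ signGroup) : σ = 1 := by
  obtain ⟨c, hc, h⟩ := h
  apply Subtype.ext
  apply Equiv.ext
  intro p
  have h1 := permCo0_e8 σ p
  rw [h] at h1
  rcases signCo0_e8 c hc p with h2 | h2
  · rw [h2] at h1
    exact (e8_injective (Or.inl h1)).symm
  · rw [h2] at h1
    apply e8_injective
    right
    rw [← h1]
    rfl

theorem finite_signGroup : Finite signGroup := by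
  have : Finite golayCode := Nat.finite_of_card_ne_zero (by
    rw [Cfsg.Agent.Lib.Helper92.natCard_golayCode]; norm_num)
  apply Finite.of_surjective
    (fun w : golayCode => (⟨signCo0 (support₂ (w : GolayPt → ZMod 2)) ⟨w, w.2, rfl⟩, _, _, rfl⟩ : signGroup))
  rintro ⟨_, c, ⟨w, hw, rfl⟩, rfl⟩
  exact ⟨⟨w, hw⟩, rfl⟩

theorem negCo0_ne_one : negCo0 ≠ 1 := by
  intro h
  have h1 : negCo0 • e8 none = e8 none := by rw [h, one_smul]
  rw [negCo0_smul] at h1
  have := congrFun (congrArg Subtype.val h1) none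
  rw [AddSubgroup.coe_neg, Pi.neg_apply, e8_apply] at this
  simp at this

theorem card_signGroup_le : Nat.card signGroup ≤ 4096 := by
  rw [← Cfsg.Agent.Lib.Helper92.natCard_golayCode]
  have : Finite golayCode := Nat.finite_of_card_ne_zero (by
    rw [Cfsg.Agent.Lib.Helper92.natCard_golayCode]; norm_num)
  apply Nat.card_le_card_of_surjective
    (fun w : golayCode => (⟨signCo0 (support₂ (w : GolayPt → ZMod 2)) ⟨w, w.2, rfl⟩, _, _, rfl⟩ : signGroup))
  rintro ⟨_, c, ⟨w, hw, rfl⟩, rfl⟩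
  exact ⟨⟨w, hw⟩, rfl⟩

end Cfsg.Agent.Lib.Helper90
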