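import Mathlib
import Cfsg.Agent.Lib.Helper90.Monster10

set_option autoImplicit false

namespace Cfsg.Agent.Lib.Helper90

open Cfsg Cfsg.Agent.Lib.Helper7 Cfsg.Agent.Lib.Helper54
open scoped Pointwise

/-- the vector `(1, …, 1, -3)`. -/
def oddFn : ℕ → ℤ := fun i => if i = 23 then -3 else 1

theorem oddFn_leech : isLeechFn oddFn = true := by decide +kernel

/-- the lattice vector `(1, …, 1, -3)`. -/
def oddVec : leechLattice := ⟨vecOf oddFn, vecOf_mem_of_isLeechFn oddFn_leech⟩

theorem oddVec_mod (p : GolayPt) : (oddVec : GolayPt → ℤ) p % 4 = 1 := by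
  show oddFn (Cfsg.Agent.Lib.Helper27.idx p) % 4 = 1
  unfold oddFn
  split_ifs <;> norm_num

/-- twice the indicator of a codeword. -/
def twoInd (A : Finset GolayPt) : GolayPt → ℤ := fun i => if i ∈ A then 2 else 0

theorem twoInd_mem {A : Finset GolayPt} (hA : A ∈ GC) : twoInd A ∈ leechLattice := by
  rw [mem_leechLattice_iff, mem_leechSet_iff]
  refine ⟨0, fun i => ?_, ?_, ?_⟩
  · unfold twoInd Int.ModEq
    split_ifs <;> norm_num
  · have h1 : ∑ i, twoInd A i = 2 * (A.card : ℤ) := by
      unfold twoInd
      rw [Finset.sum_ite_mem, Finset.univ_inter, Finset.sum_const]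
      simp [mul_comm]
    rw [h1]
    unfold Int.ModEq
    rcases Cfsg.Agent.Lib.Helper92.card_of_mem_supports hA with h | h | h | h | h <;> rw [h] <;> norm_num
  · have : (Finset.univ.filter fun i => twoInd A i ≡ 0 + 2 [ZMOD 4]) = A := by
      ext i
      simp only [Finset.mem_filter, Finset.mem_univ, true_and]
      unfold twoInd Int.ModEq
      by_cases hi : i ∈ A <;> simp [hi]
    rw [this]; exact hA

theorem GC_of_compl {A : Finset GolayPt} (h : Aᶜ ∈ GC) : A ∈ GC := by
  have := GC_compl h
  rwa [compl_compl] at this

/-- the stabiliser of the standard cross consists of monomial maps. -/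
theorem monHyp : MonHyp := by
  intro g hg
  have key : ∀ p, ∃ q, g • e8 p = e8 q ∨ g • e8 p = - e8 q := by
    intro p
    obtain ⟨i, s, hs, h⟩ := hg (e8 p) ⟨p, 8, Or.inl rfl, coe_e8 p⟩
    refine ⟨i, ?_⟩
    rcases hs with rfl | rfl
    · left; exact Subtype.ext (by rw [h, coe_e8])
    · right; exact Subtype.ext (by rw [h, AddSubgroup.coe_neg, coe_e8, ← Pi.single_neg])
  choose τ hτ using key
  have hinj : Function.Injective τ := by
    intro p p' hpp
    have h1 := hτ p
    have h2 := hτ p'
    rw [hpp] at h1
    apply e8_injective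
    have hcancel : ∀ a b : leechLattice, g • a = g • b → a = b := fun a b h =>
      MulAction.injective g h
    rcases h1 with h1 | h1 <;> rcases h2 with h2 | h2
    · left; apply hcancel; rw [h1, h2]
    · right; apply hcancel; rw [co0_neg, h1, h2, neg_neg]
    · right; apply hcancel; rw [co0_neg, h1, h2]
    · left; apply hcancel; rw [h1, h2]
  have hbij : Function.Bijective τ := Finite.injective_iff_bijective.mp hinj
  obtain ⟨σ, hσ⟩ : ∃ σ : Equiv.Perm GolayPt, ∀ p, σ p = τ p := ⟨Equiv.ofBijective τ hbij, fun _ => rfl⟩
  classical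
  obtain ⟨c, hc⟩ : ∃ c : Finset GolayPt, c = Finset.univ.filter (fun i => g • e8 (σ.symm i) = - e8 i) :=
    ⟨_, rfl⟩
  have hne : ∀ i, e8 i ≠ - e8 i := by
    intro i h
    have := congrFun (congrArg Subtype.val h) i
    rw [AddSubgroup.coe_neg, Pi.neg_apply, e8_apply] at this
    simp at this
  have hact : ∀ (x : leechLattice) (i : GolayPt), ((g • x : leechLattice) : GolayPt → ℤ) i =
      if i ∈ c then - (x : GolayPt → ℤ) (σ.symm i) else (x : GolayPt → ℤ) (σ.symm i) := by
    intro x i
    have h1 := hτ (σ.symm i)
    rw [← hσ, Equiv.apply_symm_apply] at h1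
    have h2 := co0_dotInt g x (e8 (σ.symm i))
    rw [dotInt_e8] at h2
    rcases h1 with h1 | h1
    · have hi : i ∉ c := by
        rw [hc]
        simp only [Finset.mem_filter, Finset.mem_univ, true_and]
        rw [h1]; exact hne i
      rw [h1, dotInt_e8] at h2
      rw [if_neg hi]; omega
    · have hi : i ∈ c := by
        rw [hc]
        simp only [Finset.mem_filter, Finset.mem_univ, true_and]
        exact h1
      rw [h1, AddSubgroup.coe_neg, dotInt_neg_right'', dotInt_e8] at h2
      rw [if_pos hi]; omega
  have hcGC : c ∈ GC := by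
    have h1 := (g • oddVec : leechLattice).2
    rw [mem_leechLattice_iff, mem_leechSet_iff] at h1
    obtain ⟨m, hm1, -, hm3⟩ := h1
    have hval : ∀ i, ((g • oddVec : leechLattice) : GolayPt → ℤ) i % 4 = if i ∈ c then 3 else 1 := by
      intro i
      rw [hact]
      have := oddVec_mod (σ.symm i)
      split_ifs <;> omega
    have hm := hm1 none
    have hv0 := hval none
    unfold Int.ModEq at hm
    have hmodd : m % 4 = 1 ∨ m % 4 = 3 := by
      split_ifs at hv0 <;> omega
    rcases hmodd with hm4 | hm4
    · have : (Finset.univ.filter fun i => ((g • oddVec : leechLattice) : GolayPt → ℤ) i ≡ m + 2 [ZMOD 4]) = c := by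
        ext i
        simp only [Finset.mem_filter, Finset.mem_univ, true_and]
        unfold Int.ModEq
        have := hval i
        by_cases hi : i ∈ c
        · simp only [hi, if_true, iff_true] at this ⊢; omega
        · simp only [hi, if_false, iff_false] at this ⊢; omega
      rw [this] at hm3; exact hm3
    · apply GC_of_compl
      have : (Finset.univ.filter fun i => ((g • oddVec : leechLattice) : GolayPt → ℤ) i ≡ m + 2 [ZMOD 4]) = cᶜ := by
        ext i
        simp only [Finset.mem_filter, Finset.mem_univ, true_and, Finset.mem_compl]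
        unfold Int.ModEq
        have := hval i
        by_cases hi : i ∈ c
        · simp only [hi, if_true, not_true_eq_false, iff_false] at this ⊢; omega
        · simp only [hi, if_false, not_false_eq_true, iff_true] at this ⊢; omega
      rw [this] at hm3; exact hm3
  have hσM : σ ∈ M24 := by
    rw [MulAction.mem_stabilizer_set_iff_smul_set_subset (Set.toFinite _)]
    rintro _ ⟨A, hA, rfl⟩
    show σ • A ∈ GC
    have h1 := (g • (⟨twoInd A, twoInd_mem hA⟩ : leechLattice) : leechLattice).2
    rw [mem_leechLattice_iff, mem_leechSet_iff] at h1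
    obtain ⟨m, hm1, -, hm3⟩ := h1
    have hmem : ∀ i, i ∈ σ • A ↔ σ.symm i ∈ A := by
      intro i
      rw [← Finset.inv_smul_mem_iff]
      rfl
    have hval : ∀ i, ((g • (⟨twoInd A, twoInd_mem hA⟩ : leechLattice) : leechLattice) : GolayPt → ℤ) i % 4 =
        if i ∈ σ • A then 2 else 0 := by
      intro i
      rw [hact]
      show (if i ∈ c then - twoInd A (σ.symm i) else twoInd A (σ.symm i)) % 4 = _
      unfold twoInd
      simp only [hmem]
      split_ifs <;> norm_num
    have hm := hm1 none
    have hv0 := hval none
    unfold Int.ModEq at hm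
    have hmev : m % 4 = 0 ∨ m % 4 = 2 := by
      split_ifs at hv0 <;> omega
    rcases hmev with hm4 | hm4
    · have : (Finset.univ.filter fun i => ((g • (⟨twoInd A, twoInd_mem hA⟩ : leechLattice) : leechLattice) :
          GolayPt → ℤ) i ≡ m + 2 [ZMOD 4]) = σ • A := by
        ext i
        simp only [Finset.mem_filter, Finset.mem_univ, true_and]
        unfold Int.ModEq
        have := hval i
        by_cases hi : i ∈ σ • A
        · simp only [hi, if_true, iff_true] at this ⊢; omega
        · simp only [hi, if_false, iff_false] at this ⊢; omega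
      rw [this] at hm3; exact hm3
    · apply GC_of_compl
      have : (Finset.univ.filter fun i => ((g • (⟨twoInd A, twoInd_mem hA⟩ : leechLattice) : leechLattice) :
          GolayPt → ℤ) i ≡ m + 2 [ZMOD 4]) = (σ • A)ᶜ := by
        ext i
        simp only [Finset.mem_filter, Finset.mem_univ, true_and, Finset.mem_compl]
        unfold Int.ModEq
        have := hval i
        by_cases hi : i ∈ σ • A
        · simp only [hi, if_true, not_true_eq_false, iff_false] at this ⊢; omega
        · simp only [hi, if_false, not_false_eq_true, iff_true] at this ⊢; omega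
      rw [this] at hm3; exact hm3
  refine ⟨signedPerm σ c, ⟨σ, hσM, c, hcGC, rfl⟩, ?_⟩
  intro v
  funext i
  rw [hact]
  rfl

end Cfsg.Agent.Lib.Helper90
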