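import Mathlib
import Cfsg.Agent.Lib.Helper90.Monster1

set_option autoImplicit false

namespace Cfsg.Agent.Lib.Helper90

open Cfsg

variable {G : Type*} [Group G] {z : G}

theorem sq_of_orderOf_two {H : Type*} [Group H] {s : H} (h : orderOf s = 2) : s * s = 1 := by
  rw [← pow_two, ← h]; exact pow_orderOf_eq_one s

/-- `C` is transitive on the involutions of `Q` that are not conjugate to `z` (given the
transitivity properties of `Co0`). -/
theorem monster_transitive_nonconj [Finite G] (hT : LeechTrans)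
    (Q : Subgroup (Subgroup.centralizer ({z} : Set G))) [Q.Normal] (hM : IsOfMonsterType z Q)
    (s t : G)
    (hsQ : ∃ hsc : s ∈ Subgroup.centralizer ({z} : Set G),
      (⟨s, hsc⟩ : Subgroup.centralizer ({z} : Set G)) ∈ Q)
    (htQ : ∃ htc : t ∈ Subgroup.centralizer ({z} : Set G),
      (⟨t, htc⟩ : Subgroup.centralizer ({z} : Set G)) ∈ Q)
    (hs2 : orderOf s = 2) (ht2 : orderOf t = 2) (hs : ¬ IsConj z s) (ht : ¬ IsConj z t) :
    ∃ h ∈ Subgroup.centralizer ({z} : Set G), h * s * h⁻¹ = t := by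
  obtain ⟨hset, e, ψ, hψ⟩ := hM
  have hES := es_of_setting hset
  obtain ⟨hz, -, -, -, g, ⟨hrc, hrQ⟩, hrz⟩ := hset
  obtain ⟨hsc, hsQ⟩ := hsQ
  obtain ⟨htc, htQ⟩ := htQ
  -- non-central elements
  have hcen : ∀ x : Q, x ∈ Subgroup.center Q → ((x : Subgroup.centralizer ({z} : Set G)) : G) = 1 ∨
      ((x : Subgroup.centralizer ({z} : Set G)) : G) = z := by
    intro x hx
    have := hES.center (x : Subgroup.centralizer ({z} : Set G)) x.2 (fun q hq => by
      have := Subgroup.mem_center_iff.mp hx ⟨q, hq⟩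
      exact congrArg Subtype.val this)
    rcases this with h1 | h1
    · left; exact congrArg Subtype.val h1
    · right; exact congrArg Subtype.val h1
  have hs1 : s ≠ 1 := by
    intro h; rw [h, orderOf_one] at hs2; omega
  have ht1 : t ≠ 1 := by
    intro h; rw [h, orderOf_one] at ht2; omega
  have hz1 : z ≠ 1 := by
    intro h; rw [h, orderOf_one] at hz; omega
  have hr1 : g * z * g⁻¹ ≠ 1 := by
    intro h
    apply hz1
    have := congrArg (fun w => g⁻¹ * w * g) h
    simpa [mul_assoc] using this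
  have hsn : (⟨⟨s, hsc⟩, hsQ⟩ : Q) ∉ Subgroup.center Q := by
    intro h
    rcases hcen _ h with h1 | h1
    · exact hs1 h1
    · apply hs
      have h2 : s = z := h1
      rw [h2]
  have htn : (⟨⟨t, htc⟩, htQ⟩ : Q) ∉ Subgroup.center Q := by
    intro h
    rcases hcen _ h with h1 | h1
    · exact ht1 h1
    · apply ht
      have h2 : t = z := h1
      rw [h2]
  have hrn : (⟨⟨g * z * g⁻¹, hrc⟩, hrQ⟩ : Q) ∉ Subgroup.center Q := by
    intro h
    rcases hcen _ h with h1 | h1
    · exact hr1 h1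
    · exact hrz h1
  obtain ⟨Ns, hNs, hsT⟩ : ∃ N : ℤ, (N = 32 ∨ N = 48 ∨ N = 64) ∧
      HasType ψ (⟨⟨s, hsc⟩, hsQ⟩ : Q) N := by
    rcases exists_type hψ (⟨⟨s, hsc⟩, hsQ⟩ : Q) with h | h | h | h
    · exact absurd h hsn
    · exact ⟨32, by norm_num, h⟩
    · exact ⟨48, by norm_num, h⟩
    · exact ⟨64, by norm_num, h⟩
  obtain ⟨Nt, hNt, htT⟩ : ∃ N : ℤ, (N = 32 ∨ N = 48 ∨ N = 64) ∧
      HasType ψ (⟨⟨t, htc⟩, htQ⟩ : Q) N := by
    rcases exists_type hψ (⟨⟨t, htc⟩, htQ⟩ : Q) with h | h | h | h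
    · exact absurd h htn
    · exact ⟨32, by norm_num, h⟩
    · exact ⟨48, by norm_num, h⟩
    · exact ⟨64, by norm_num, h⟩
  obtain ⟨Nr, hNr, hrT⟩ : ∃ N : ℤ, (N = 32 ∨ N = 48 ∨ N = 64) ∧
      HasType ψ (⟨⟨g * z * g⁻¹, hrc⟩, hrQ⟩ : Q) N := by
    rcases exists_type hψ (⟨⟨g * z * g⁻¹, hrc⟩, hrQ⟩ : Q) with h | h | h | h
    · exact absurd h hrn
    · exact ⟨32, by norm_num, h⟩
    · exact ⟨48, by norm_num, h⟩
    · exact ⟨64, by norm_num, h⟩
  by_cases hst : Ns = Nt
  · subst hst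
    obtain ⟨h, hh⟩ := conj_of_type hES hT hψ hNs hsT htT htn
    exact ⟨h, h.2, congrArg Subtype.val hh⟩
  exfalso
  have hrs : Nr ≠ Ns := by
    intro h
    subst h
    obtain ⟨h, hh⟩ := conj_of_type hES hT hψ hNr hrT hsT hsn
    apply hs
    rw [isConj_iff]
    refine ⟨(h : G) * g, ?_⟩
    have := congrArg Subtype.val hh
    simp only [Subgroup.coe_mul, InvMemClass.coe_inv] at this
    rw [← this]
    group
  have hrt : Nr ≠ Nt := by
    intro h
    subst h
    obtain ⟨h, hh⟩ := conj_of_type hES hT hψ hNr hrT htT htn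
    apply ht
    rw [isConj_iff]
    refine ⟨(h : G) * g, ?_⟩
    have := congrArg Subtype.val hh
    simp only [Subgroup.coe_mul, InvMemClass.coe_inv] at this
    rw [← this]
    group
  -- every element of `Q` squares to one
  have hss : (⟨s, hsc⟩ : Subgroup.centralizer ({z} : Set G)) * ⟨s, hsc⟩ = 1 :=
    Subtype.ext (sq_of_orderOf_two hs2)
  have htt : (⟨t, htc⟩ : Subgroup.centralizer ({z} : Set G)) * ⟨t, htc⟩ = 1 :=
    Subtype.ext (sq_of_orderOf_two ht2)
  have hrr : (⟨g * z * g⁻¹, hrc⟩ : Subgroup.centralizer ({z} : Set G)) * ⟨g * z * g⁻¹, hrc⟩ = 1 := by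
    apply Subtype.ext
    show g * z * g⁻¹ * (g * z * g⁻¹) = 1
    calc g * z * g⁻¹ * (g * z * g⁻¹) = g * (z * z) * g⁻¹ := by group
      _ = 1 := by rw [sq_of_orderOf_two hz]; group
  have hconj_sq : ∀ (a b h : Subgroup.centralizer ({z} : Set G)), a * a = 1 → h * a * h⁻¹ = b →
      b * b = 1 := by
    intro a b h ha hb
    rw [← hb]
    calc h * a * h⁻¹ * (h * a * h⁻¹) = h * (a * a) * h⁻¹ := by group
      _ = 1 := by rw [ha]; group
  have hall : ∀ x ∈ Q, x * x = 1 := by
    intro x hx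
    by_cases hxc : (⟨x, hx⟩ : Q) ∈ Subgroup.center Q
    · have := hES.center x hx (fun q hq => by
        have := Subgroup.mem_center_iff.mp hxc ⟨q, hq⟩
        exact congrArg Subtype.val this)
      rcases this with h1 | h1
      · rw [h1, one_mul]
      · rw [h1]; exact hES.z_sq
    · obtain ⟨N, hN, hxT⟩ : ∃ N : ℤ, (N = 32 ∨ N = 48 ∨ N = 64) ∧ HasType ψ (⟨x, hx⟩ : Q) N := by
        rcases exists_type hψ (⟨x, hx⟩ : Q) with h | h | h | h
        · exact absurd h hxc
        · exact ⟨32, by norm_num, h⟩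
        · exact ⟨48, by norm_num, h⟩
        · exact ⟨64, by norm_num, h⟩
      have h3 : N = Ns ∨ N = Nt ∨ N = Nr := by omega
      rcases h3 with rfl | rfl | rfl
      · obtain ⟨h, hh⟩ := conj_of_type hES hT hψ hN hsT hxT hxc
        exact hconj_sq _ _ h hss hh
      · obtain ⟨h, hh⟩ := conj_of_type hES hT hψ hN htT hxT hxc
        exact hconj_sq _ _ h htt hh
      · obtain ⟨h, hh⟩ := conj_of_type hES hT hψ hN hrT hxT hxc
        exact hconj_sq _ _ h hrr hh
  obtain ⟨x, hx, y, hy, hxy⟩ := hES.nonab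
  apply hxy
  have h1 := hall x hx
  have h2 := hall y hy
  have h3 := hall (x * y) (Q.mul_mem hx hy)
  calc x * y = (y * y) * (x * y) * (x * x) := by rw [h1, h2, one_mul, mul_one]
    _ = y * (y * x) * (y * x) * x := by group
    _ = y * (x * x) * (y * x) * (y * x) * (y * y) * x := by rw [h1, h2]; group
    _ = y * x * ((x * y) * (x * y)) * x * y * y * x := by group
    _ = y * x := by
      rw [h3, mul_one]
      calc y * x * x * y * y * x = y * (x * x) * (y * y) * x := by group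
        _ = y * x := by rw [h1, h2]; group

end Cfsg.Agent.Lib.Helper90
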