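import Mathlib

set_option autoImplicit false

namespace Cfsg.Agent.Lib.Helper90

/-- a `2`-group permuting a finite set of odd size has a fixed point (action given by a family of maps). -/
theorem exists_fixed_of_odd_aux {P α : Type*} [Group P] (hP : IsPGroup 2 P)
    (f : P → α → α) (h1 : ∀ a, f 1 a = a) (hmul : ∀ r r' a, f (r * r') a = f r (f r' a))
    (Y : Set α) (hYfin : Y.Finite) (hodd : Odd Y.ncard) (hinv : ∀ r, ∀ a ∈ Y, f r a ∈ Y) :
    ∃ a ∈ Y, ∀ r, f r a = a := by
  have : Fact (Nat.Prime 2) := ⟨Nat.prime_two⟩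
  let _ : MulAction P Y :=
    { smul := fun r a => ⟨f r a.1, hinv r a.1 a.2⟩
      one_smul := fun a => Subtype.ext (h1 a.1)
      mul_smul := fun r r' a => Subtype.ext (hmul r r' a.1) }
  have : Finite Y := hYfin
  have hnd : ¬ 2 ∣ Nat.card Y := by
    rw [Nat.card_coe_set_eq]
    exact hodd.not_two_dvd_nat
  obtain ⟨a, ha⟩ := hP.nonempty_fixed_point_of_prime_not_dvd_card Y hnd
  refine ⟨a.1, a.2, fun r => ?_⟩
  exact congrArg Subtype.val (ha r)

/-- conjugation by `r` on `Q / Z(Q)`. -/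
noncomputable def conjQuot {C : Type*} [Group C] (Q : Subgroup C) [hn : Q.Normal] (r : C) :
    Q ⧸ Subgroup.center Q → Q ⧸ Subgroup.center Q :=
  QuotientGroup.map (Subgroup.center Q) (Subgroup.center Q) (MulAut.conjNormal r : MulAut Q).toMonoidHom
    (by
      intro c hc
      rw [Subgroup.mem_comap, Subgroup.mem_center_iff]
      intro y
      have h := Subgroup.mem_center_iff.mp hc ((MulAut.conjNormal r : MulAut Q).symm y)
      have := congrArg (MulAut.conjNormal r : MulAut Q) h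
      simpa using this)

theorem conjQuot_mk {C : Type*} [Group C] (Q : Subgroup C) [hn : Q.Normal] (r : C) (q : Q) :
    conjQuot Q r (QuotientGroup.mk q) =
      QuotientGroup.mk (⟨r * q * r⁻¹, hn.conj_mem q q.2 r⟩ : Q) := by
  unfold conjQuot
  rw [QuotientGroup.map_mk]
  congr 1

theorem conjQuot_one {C : Type*} [Group C] (Q : Subgroup C) [hn : Q.Normal]
    (a : Q ⧸ Subgroup.center Q) : conjQuot Q 1 a = a := by
  obtain ⟨q, rfl⟩ := QuotientGroup.mk_surjective a
  rw [conjQuot_mk]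
  congr 1
  apply Subtype.ext
  simp

theorem conjQuot_mul {C : Type*} [Group C] (Q : Subgroup C) [hn : Q.Normal] (r r' : C)
    (a : Q ⧸ Subgroup.center Q) : conjQuot Q (r * r') a = conjQuot Q r (conjQuot Q r' a) := by
  obtain ⟨q, rfl⟩ := QuotientGroup.mk_surjective a
  rw [conjQuot_mk, conjQuot_mk, conjQuot_mk]
  congr 1
  apply Subtype.ext
  simp only
  group

/-- a `2`-subgroup stabilising a set of odd size in `Q / Z(Q)` fixes one of its members. -/
theorem exists_fixed_of_odd {C : Type*} [Group C] (Q : Subgroup C) [hn : Q.Normal] (P : Subgroup C)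
    (hP : IsPGroup 2 P)
    (Y : Set (Q ⧸ Subgroup.center Q)) (hYfin : Y.Finite) (hodd : Odd Y.ncard)
    (hinv : ∀ r ∈ P, ∀ y ∈ Y, conjQuot Q r y ∈ Y) :
    ∃ y ∈ Y, ∀ r ∈ P, conjQuot Q r y = y := by
  obtain ⟨a, haY, ha⟩ := exists_fixed_of_odd_aux hP (fun r : P => conjQuot Q (r : C))
    (fun a => conjQuot_one Q a) (fun r r' a => conjQuot_mul Q r r' a)
    Y hYfin hodd (fun r a haY => hinv r r.2 a haY)
  exact ⟨a, haY, fun r hr => ha ⟨r, hr⟩⟩

end Cfsg.Agent.Lib.Helper90
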