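import Mathlib
import Cfsg.Agent.Lib.Helper90.Monster1
import Cfsg.Agent.S0400
import Cfsg.Agent.S0401
import Cfsg.Agent.S5593

set_option autoImplicit false

namespace Cfsg.Agent.Lib.Helper90

/-- the transitivity properties of `Co0` on the short vectors of the Leech lattice. -/
theorem leechTrans : LeechTrans :=
  ⟨fun v w hv hw => Cfsg.Agent.S0400.result v w hv hw,
   fun v w hv hw => Cfsg.Agent.S0401.result v w hv hw,
   fun v w hv hw => Cfsg.Agent.S5593.result v w hv hw⟩

end Cfsg.Agent.Lib.Helper90
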