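import Mathlib
import Cfsg.Prelude.Def_MonsterType
import Cfsg.Agent.Lib.Helper90.PairData

set_option autoImplicit false

namespace Cfsg.Agent.Lib.Helper90

variable {G : Type*} [Group G]

namespace PairData

variable {Q Q' : Subgroup G} {z s : G}

theorem mem_P (_h : PairData Q Q' z s) (p : G) :
    p ∈ Q ⊓ Subgroup.centralizer ({s} : Set G) ↔ p ∈ Q ∧ p * s = s * p := by
  rw [Subgroup.mem_inf, Subgroup.mem_centralizer_singleton_iff]

theorem mem_P' (_h : PairData Q Q' z s) (p : G) :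
    p ∈ Q' ⊓ Subgroup.centralizer ({z} : Set G) ↔ p ∈ Q' ∧ p * z = z * p := by
  rw [Subgroup.mem_inf, Subgroup.mem_centralizer_singleton_iff]

theorem E_comm (h : PairData Q Q' z s) {x y : G} (hx : x ∈ Q ⊓ Q') (hy : y ∈ Q ⊓ Q') :
    x * y = y * x := by
  rcases h.es.comm x hx.1 y hy.1 with h1 | h1
  · exact h1
  · rcases h.es'.comm x hx.2 y hy.2 with h2 | h2
    · exact h2
    · exfalso
      apply h.ne
      rw [h1] at h2
      exact mul_right_cancel h2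

theorem E_sq (h : PairData Q Q' z s) {x : G} (hx : x ∈ Q ⊓ Q') : x * x = 1 := by
  rcases h.es.sq x hx.1 with h1 | h1
  · exact h1
  · rcases h.es'.sq x hx.2 with h2 | h2
    · exact h2
    · exfalso
      apply h.ne
      rw [← h1, h2]

theorem z_mem_E (h : PairData Q Q' z s) : z ∈ Q ⊓ Q' := ⟨h.es.z_mem, h.z_mem⟩
theorem s_mem_E (h : PairData Q Q' z s) : s ∈ Q ⊓ Q' := ⟨h.s_mem, h.es'.z_mem⟩

theorem E_le_P (h : PairData Q Q' z s) : Q ⊓ Q' ≤ Q ⊓ Subgroup.centralizer ({s} : Set G) := by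
  intro e he
  exact (h.mem_P e).mpr ⟨he.1, h.es'.z_comm e he.2⟩

theorem P_conj_E (h : PairData Q Q' z s) {p : G} (hp : p ∈ Q ⊓ Subgroup.centralizer ({s} : Set G))
    {e : G} (he : e ∈ Q ⊓ Q') : p * e * p⁻¹ ∈ Q ⊓ Q' := by
  obtain ⟨hpQ, hps⟩ := (h.mem_P p).mp hp
  exact ⟨Q.mul_mem (Q.mul_mem hpQ he.1) (Q.inv_mem hpQ), h.norm' p hps e he.2⟩

theorem P'_conj_E (h : PairData Q Q' z s) {p : G} (hp : p ∈ Q' ⊓ Subgroup.centralizer ({z} : Set G))
    {e : G} (he : e ∈ Q ⊓ Q') : p * e * p⁻¹ ∈ Q ⊓ Q' := by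
  obtain ⟨hpQ, hpz⟩ := (h.mem_P' p).mp hp
  exact ⟨h.norm p hpz e he.1, Q'.mul_mem (Q'.mul_mem hpQ he.2) (Q'.inv_mem hpQ)⟩

theorem comm_Q (h : PairData Q Q' z s) {a b : G} (ha : a ∈ Q) (hb : b ∈ Q) :
    a * b * a⁻¹ * b⁻¹ = 1 ∨ a * b * a⁻¹ * b⁻¹ = z := by
  rcases h.es.comm a ha b hb with h1 | h1
  · left; rw [h1]; group
  · right; rw [h1]; group

theorem comm_PP (h : PairData Q Q' z s) {a b : G} (ha : a ∈ Q) (hb : b ∈ Q) :
    a * b * a⁻¹ * b⁻¹ ∈ Q ⊓ Q' := by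
  rcases h.comm_Q ha hb with h1 | h1
  · rw [h1]; exact Subgroup.one_mem _
  · rw [h1]; exact h.z_mem_E

theorem comm_P'P' (h : PairData Q Q' z s) {a b : G} (ha : a ∈ Q') (hb : b ∈ Q') :
    a * b * a⁻¹ * b⁻¹ ∈ Q ⊓ Q' := by
  have := h.symm.comm_PP ha hb
  exact ⟨this.2, this.1⟩

theorem comm_PP' (h : PairData Q Q' z s) {a b : G}
    (ha : a ∈ Q ⊓ Subgroup.centralizer ({s} : Set G))
    (hb : b ∈ Q' ⊓ Subgroup.centralizer ({z} : Set G)) : a * b * a⁻¹ * b⁻¹ ∈ Q ⊓ Q' := by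
  obtain ⟨haQ, has⟩ := (h.mem_P a).mp ha
  obtain ⟨hbQ, hbz⟩ := (h.mem_P' b).mp hb
  constructor
  · have h1 := h.norm b hbz a⁻¹ (Q.inv_mem haQ)
    have := Q.mul_mem haQ h1
    have e : a * (b * a⁻¹ * b⁻¹) = a * b * a⁻¹ * b⁻¹ := by group
    rwa [e] at this
  · exact Q'.mul_mem (h.norm' a has b hbQ) (Q'.inv_mem hbQ)

theorem P_le_normalizer_E [Finite G] (h : PairData Q Q' z s) :
    Q ⊓ Subgroup.centralizer ({s} : Set G) ≤ Subgroup.normalizer ((Q ⊓ Q' : Subgroup G) : Set G) :=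
  fun _ hp => mem_normalizer_of_conj_mem _ _ (fun _ he => h.P_conj_E hp he)

theorem P'_le_normalizer_E [Finite G] (h : PairData Q Q' z s) :
    Q' ⊓ Subgroup.centralizer ({z} : Set G) ≤ Subgroup.normalizer ((Q ⊓ Q' : Subgroup G) : Set G) :=
  fun _ hp => mem_normalizer_of_conj_mem _ _ (fun _ he => h.P'_conj_E hp he)

/-- `[R, R] ≤ E`. -/
theorem comm_RR [Finite G] (h : PairData Q Q' z s) {x y : G}
    (hx : x ∈ (Q' ⊓ Subgroup.centralizer ({z} : Set G)) ⊔ (Q ⊓ Subgroup.centralizer ({s} : Set G)))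
    (hy : y ∈ (Q' ⊓ Subgroup.centralizer ({z} : Set G)) ⊔ (Q ⊓ Subgroup.centralizer ({s} : Set G))) :
    x * y * x⁻¹ * y⁻¹ ∈ Q ⊓ Q' := by
  have st1 : ∀ a ∈ Q ⊓ Subgroup.centralizer ({s} : Set G),
      ∀ y ∈ (Q' ⊓ Subgroup.centralizer ({z} : Set G)) ⊔ (Q ⊓ Subgroup.centralizer ({s} : Set G)),
        y * a * y⁻¹ * a⁻¹ ∈ Q ⊓ Q' := by
    intro a ha
    apply comm_mem_of_sup _ _ _ a h.P'_le_normalizer_E h.P_le_normalizer_E
    · intro b hb
      exact comm_swap_mem _ (h.comm_PP' ha hb)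
    · intro b hb
      exact h.comm_PP hb.1 ha.1
  have st1' : ∀ a ∈ Q' ⊓ Subgroup.centralizer ({z} : Set G),
      ∀ y ∈ (Q' ⊓ Subgroup.centralizer ({z} : Set G)) ⊔ (Q ⊓ Subgroup.centralizer ({s} : Set G)),
        y * a * y⁻¹ * a⁻¹ ∈ Q ⊓ Q' := by
    intro a ha
    apply comm_mem_of_sup _ _ _ a h.P'_le_normalizer_E h.P_le_normalizer_E
    · intro b hb
      exact h.comm_P'P' hb.1 ha.1
    · intro b hb
      exact h.comm_PP' hb ha
  refine comm_mem_of_sup _ _ _ y h.P'_le_normalizer_E h.P_le_normalizer_E ?_ ?_ x hx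
  · intro a ha
    exact comm_swap_mem _ (st1' a ha y hy)
  · intro a ha
    exact comm_swap_mem _ (st1 a ha y hy)

/-- squares of elements of `R` lie in `E`. -/
theorem sq_R [Finite G] (h : PairData Q Q' z s) {x : G}
    (hx : x ∈ (Q' ⊓ Subgroup.centralizer ({z} : Set G)) ⊔ (Q ⊓ Subgroup.centralizer ({s} : Set G))) :
    x * x ∈ Q ⊓ Q' := by
  let S : Subgroup G :=
    { carrier := {x | x ∈ (Q' ⊓ Subgroup.centralizer ({z} : Set G)) ⊔
          (Q ⊓ Subgroup.centralizer ({s} : Set G)) ∧ x * x ∈ Q ⊓ Q'}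
      one_mem' := ⟨Subgroup.one_mem _, by simp⟩
      mul_mem' := by
        rintro a b ⟨ha, ha'⟩ ⟨hb, hb'⟩
        refine ⟨Subgroup.mul_mem _ ha hb, ?_⟩
        have h1 := h.comm_RR (Subgroup.inv_mem _ ha) hb
        have := (Q ⊓ Q').mul_mem ((Q ⊓ Q').mul_mem ha' h1) hb'
        have e : a * a * (a⁻¹ * b * a⁻¹⁻¹ * b⁻¹) * (b * b) = a * b * (a * b) := by group
        rwa [e] at this
      inv_mem' := by
        rintro a ⟨ha, ha'⟩
        refine ⟨Subgroup.inv_mem _ ha, ?_⟩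
        have := (Q ⊓ Q').inv_mem ha'
        have e : (a * a)⁻¹ = a⁻¹ * a⁻¹ := by group
        rwa [e] at this }
  have hle : (Q' ⊓ Subgroup.centralizer ({z} : Set G)) ⊔ (Q ⊓ Subgroup.centralizer ({s} : Set G)) ≤ S := by
    apply sup_le
    · intro a ha
      refine ⟨le_sup_left (a := Q' ⊓ Subgroup.centralizer ({z} : Set G)) ha, ?_⟩
      rcases h.es'.sq a ha.1 with h1 | h1
      · rw [h1]; exact Subgroup.one_mem _
      · rw [h1]; exact h.s_mem_E
    · intro a ha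
      refine ⟨le_sup_right (a := Q' ⊓ Subgroup.centralizer ({z} : Set G)) ha, ?_⟩
      rcases h.es.sq a ha.1 with h1 | h1
      · rw [h1]; exact Subgroup.one_mem _
      · rw [h1]; exact h.z_mem_E
  exact (hle hx).2

/-- `R` centralises `z` and `s`. -/
theorem R_comm (h : PairData Q Q' z s) {x : G}
    (hx : x ∈ (Q' ⊓ Subgroup.centralizer ({z} : Set G)) ⊔ (Q ⊓ Subgroup.centralizer ({s} : Set G))) :
    x * z = z * x ∧ x * s = s * x := by
  have hle : (Q' ⊓ Subgroup.centralizer ({z} : Set G)) ⊔ (Q ⊓ Subgroup.centralizer ({s} : Set G)) ≤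
      Subgroup.centralizer ({z} : Set G) ⊓ Subgroup.centralizer ({s} : Set G) := by
    apply sup_le
    · intro a ha
      obtain ⟨h1, h2⟩ := (h.mem_P' a).mp ha
      exact ⟨Subgroup.mem_centralizer_singleton_iff.mpr h2,
        Subgroup.mem_centralizer_singleton_iff.mpr (h.es'.z_comm a h1)⟩
    · intro a ha
      obtain ⟨h1, h2⟩ := (h.mem_P a).mp ha
      exact ⟨Subgroup.mem_centralizer_singleton_iff.mpr (h.es.z_comm a h1),
        Subgroup.mem_centralizer_singleton_iff.mpr h2⟩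
  have := hle hx
  exact ⟨Subgroup.mem_centralizer_singleton_iff.mp this.1,
    Subgroup.mem_centralizer_singleton_iff.mp this.2⟩

/-- the four-group. -/
theorem four (h : PairData Q Q' z s) (V : Subgroup G) (hV : V = Subgroup.closure ({z, s} : Set G)) :
    Four V z s := by
  apply Four.of_le V z s h.es.z_ne h.es'.z_ne h.ne h.es.z_sq h.es'.z_sq h.zs_comm
  · rw [hV]; exact Subgroup.subset_closure (by simp)
  · rw [hV]; exact Subgroup.subset_closure (by simp)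
  · rw [hV, Subgroup.closure_le]
    rintro v (rfl | rfl)
    · exact Or.inr (Or.inl rfl)
    · exact Or.inr (Or.inr (Or.inl rfl))

/-- `Q` normalises `V`. -/
theorem Q_le_normalizer_V [Finite G] (h : PairData Q Q' z s) {V : Subgroup G} (hV : Four V z s) :
    Q ≤ Subgroup.normalizer (V : Set G) := by
  intro q hq
  apply hV.mem_normalizer_of
  · have : q * z * q⁻¹ = z := by rw [h.es.z_comm q hq]; group
    rw [this]; exact (hV.mem z).mpr (Or.inr (Or.inl rfl))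
  · rcases h.es.conj_eq hq h.s_mem with h1 | h1
    · rw [h1]; exact (hV.mem s).mpr (Or.inr (Or.inr (Or.inl rfl)))
    · rw [h1]; exact (hV.mem _).mpr (Or.inr (Or.inr (Or.inr rfl)))

/-- `Q'` normalises `V`. -/
theorem Q'_le_normalizer_V [Finite G] (h : PairData Q Q' z s) {V : Subgroup G} (hV : Four V z s) :
    Q' ≤ Subgroup.normalizer (V : Set G) := by
  intro q hq
  apply hV.mem_normalizer_of
  · rcases h.es'.conj_eq hq h.z_mem with h1 | h1
    · rw [h1]; exact (hV.mem z).mpr (Or.inr (Or.inl rfl))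
    · rw [h1, ← h.zs_comm]; exact (hV.mem _).mpr (Or.inr (Or.inr (Or.inr rfl)))
  · have : q * s * q⁻¹ = s := by rw [h.es'.z_comm q hq]; group
    rw [this]; exact (hV.mem s).mpr (Or.inr (Or.inr (Or.inl rfl)))

/-- `[X, E] ≤ V` elementwise. -/
theorem comm_XE [Finite G] (h : PairData Q Q' z s) {V : Subgroup G} (hV : Four V z s) {x e : G}
    (hx : x ∈ Q ⊔ Q') (he : e ∈ Q ⊓ Q') : x * e * x⁻¹ * e⁻¹ ∈ V := by
  refine comm_mem_of_sup V Q Q' e (h.Q_le_normalizer_V hV) (h.Q'_le_normalizer_V hV) ?_ ?_ x hx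
  · intro a ha
    rcases h.comm_Q ha he.1 with h1 | h1
    · rw [h1]; exact V.one_mem
    · rw [h1]; exact (hV.mem z).mpr (Or.inr (Or.inl rfl))
  · intro a ha
    rcases h.symm.comm_Q ha he.2 with h1 | h1
    · rw [h1]; exact V.one_mem
    · rw [h1]; exact (hV.mem s).mpr (Or.inr (Or.inr (Or.inl rfl)))

theorem R_le_X (_h : PairData Q Q' z s) :
    (Q' ⊓ Subgroup.centralizer ({z} : Set G)) ⊔ (Q ⊓ Subgroup.centralizer ({s} : Set G)) ≤ Q ⊔ Q' :=
  sup_le (inf_le_left.trans le_sup_right) (inf_le_left.trans le_sup_left)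

end PairData

end Cfsg.Agent.Lib.Helper90
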