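import Mathlib

set_option autoImplicit false

namespace Cfsg.Agent.Lib.Helper90

/-- A group generated by two involutions satisfying the braid relation has at most six elements. -/
theorem card_le_six_of_braid {Y : Type*} [Group Y] (a b : Y) (ha : a * a = 1) (hb : b * b = 1)
    (hbr : a * b * a = b * a * b) (hgen : Subgroup.closure ({a, b} : Set Y) = ⊤) :
    Finite Y ∧ Nat.card Y ≤ 6 := by
  have hainv : a⁻¹ = a := inv_eq_of_mul_eq_one_right ha
  have hbinv : b⁻¹ = b := inv_eq_of_mul_eq_one_right hb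
  let f : Fin 6 → Y := ![1, a, b, a * b, b * a, a * b * a]
  have hall : ∀ y : Y, ∃ i, f i = y := by
    intro y
    have hy : y ∈ Subgroup.closure ({a, b} : Set Y) := by rw [hgen]; exact Subgroup.mem_top y
    induction hy using Subgroup.closure_induction_left with
    | one => exact ⟨0, rfl⟩
    | mul_left x hx y _ ih =>
      obtain ⟨i, rfl⟩ := ih
      rcases hx with rfl | rfl
      · fin_cases i
        · exact ⟨1, by simp [f]⟩
        · exact ⟨0, by simp [f, ha]⟩
        · exact ⟨3, by simp [f]⟩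
        · exact ⟨2, by simp [f, ← mul_assoc, ha]⟩
        · exact ⟨5, by simp [f, ← mul_assoc]⟩
        · exact ⟨4, by simp [f, ← mul_assoc, ha]⟩
      · fin_cases i
        · exact ⟨2, by simp [f]⟩
        · exact ⟨4, by simp [f]⟩
        · exact ⟨0, by simp [f, hb]⟩
        · exact ⟨5, by simp [f, ← mul_assoc, hbr]⟩
        · exact ⟨1, by simp [f, ← mul_assoc, hb]⟩
        · refine ⟨3, ?_⟩
          show a * x = x * (a * x * a)
          rw [hbr, ← mul_assoc, ← mul_assoc, hb, one_mul]
    | inv_mul_cancel x hx y _ ih =>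
      obtain ⟨i, rfl⟩ := ih
      rcases hx with rfl | rfl
      · rw [hainv]
        fin_cases i
        · exact ⟨1, by simp [f]⟩
        · exact ⟨0, by simp [f, ha]⟩
        · exact ⟨3, by simp [f]⟩
        · exact ⟨2, by simp [f, ← mul_assoc, ha]⟩
        · exact ⟨5, by simp [f, ← mul_assoc]⟩
        · exact ⟨4, by simp [f, ← mul_assoc, ha]⟩
      · rw [hbinv]
        fin_cases i
        · exact ⟨2, by simp [f]⟩
        · exact ⟨4, by simp [f]⟩
        · exact ⟨0, by simp [f, hb]⟩
        · exact ⟨5, by simp [f, ← mul_assoc, hbr]⟩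
        · exact ⟨1, by simp [f, ← mul_assoc, hb]⟩
        · refine ⟨3, ?_⟩
          show a * x = x * (a * x * a)
          rw [hbr, ← mul_assoc, ← mul_assoc, hb, one_mul]
  have hsurj : Function.Surjective f := hall
  have hfin : Finite Y := Finite.of_surjective f hsurj
  refine ⟨hfin, ?_⟩
  have := Nat.card_le_card_of_surjective f hsurj
  simpa using this

set_option maxRecDepth 100000 in
/-- A normal `2`-subgroup of `S₃` is trivial. -/
theorem normal_two_subgroup_perm_three (N : Subgroup (Equiv.Perm (Fin 3))) [hN : N.Normal]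
    (h2 : IsPGroup 2 N) : N = ⊥ := by
  have key : ∀ σ : Equiv.Perm (Fin 3), σ ≠ 1 →
      ∃ τ : Equiv.Perm (Fin 3), (σ * (τ * σ * τ⁻¹)) ^ 3 = 1 ∧ σ * (τ * σ * τ⁻¹) ≠ 1 := by
    decide
  rw [eq_bot_iff]
  intro σ hσ
  rw [Subgroup.mem_bot]
  by_contra hne
  obtain ⟨τ, h3, h1⟩ := key σ hne
  have hmem : σ * (τ * σ * τ⁻¹) ∈ N := N.mul_mem hσ (hN.conj_mem σ hσ τ)
  obtain ⟨k, hk⟩ := h2 ⟨_, hmem⟩
  have hk' : (σ * (τ * σ * τ⁻¹)) ^ (2 ^ k) = 1 := by
    have := congrArg Subtype.val hk
    simpa using this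
  have d1 := orderOf_dvd_of_pow_eq_one h3
  have d2 := orderOf_dvd_of_pow_eq_one hk'
  have hcop : Nat.Coprime 3 (2 ^ k) := Nat.Coprime.pow_right k (by norm_num)
  have := Nat.eq_one_of_dvd_coprimes hcop d1 d2
  exact h1 (orderOf_eq_one_iff.mp this)

end Cfsg.Agent.Lib.Helper90
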