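import Mathlib
import Cfsg.Prelude.Def_MonsterType
import Cfsg.Agent.Lib.Helper90.PairStructure
import Cfsg.Agent.Lib.Helper90.SymThree

set_option autoImplicit false

namespace Cfsg.Agent.Lib.Helper90

variable {G : Type*} [Group G]

namespace PairData

variable {Q Q' : Subgroup G} {z s : G}

theorem conj_P (h : PairData Q Q' z s) {q p : G} (hq : q ∈ Q)
    (hp : p ∈ Q ⊓ Subgroup.centralizer ({s} : Set G)) :
    q * p * q⁻¹ ∈ Q ⊓ Subgroup.centralizer ({s} : Set G) := by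
  obtain ⟨hpQ, hps⟩ := (h.mem_P p).mp hp
  rcases h.es.conj_eq hq hpQ with h1 | h1
  · rw [h1]; exact hp
  · rw [h1]
    exact Subgroup.mul_mem _ ((h.mem_P z).mpr ⟨h.es.z_mem, h.zs_comm⟩) hp

theorem comm_QP' (h : PairData Q Q' z s) {q p : G} (hq : q ∈ Q)
    (hp : p ∈ Q' ⊓ Subgroup.centralizer ({z} : Set G)) :
    q * p * q⁻¹ * p⁻¹ ∈ Q ⊓ Subgroup.centralizer ({s} : Set G) := by
  obtain ⟨hpQ, hpz⟩ := (h.mem_P' p).mp hp
  have hps : p * s = s * p := h.es'.z_comm p hpQ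
  have hps' : p⁻¹ * s = s * p⁻¹ := h.es'.z_comm _ (Q'.inv_mem hpQ)
  rw [h.mem_P]
  constructor
  · have h1 := h.norm p hpz q⁻¹ (Q.inv_mem hq)
    have := Q.mul_mem hq h1
    have e : q * (p * q⁻¹ * p⁻¹) = q * p * q⁻¹ * p⁻¹ := by group
    rwa [e] at this
  · rcases h.es.comm q hq s h.s_mem with h1 | h1
    · have h1' : q⁻¹ * s = s * q⁻¹ := by
        calc q⁻¹ * s = q⁻¹ * (s * q) * q⁻¹ := by group
          _ = q⁻¹ * (q * s) * q⁻¹ := by rw [h1]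
          _ = s * q⁻¹ := by group
      calc q * p * q⁻¹ * p⁻¹ * s = q * p * q⁻¹ * (p⁻¹ * s) := by group
        _ = q * p * (q⁻¹ * s) * p⁻¹ := by rw [hps']; group
        _ = q * (p * s) * q⁻¹ * p⁻¹ := by rw [h1']; group
        _ = (q * s) * p * q⁻¹ * p⁻¹ := by rw [hps]; group
        _ = s * (q * p * q⁻¹ * p⁻¹) := by rw [h1]; group
    · have hqz : q⁻¹ * z = z * q⁻¹ := h.es.z_comm _ (Q.inv_mem hq)
      have hqz' : q * z = z * q := h.es.z_comm _ hq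
      have h1' : q⁻¹ * s = z * (s * q⁻¹) := by
        have e : s = z * (q⁻¹ * s * q) := by
          calc s = q⁻¹ * (q * s) := by group
            _ = (q⁻¹ * z) * s * q := by rw [h1]; group
            _ = z * (q⁻¹ * s * q) := by rw [hqz]; group
        calc q⁻¹ * s = (z * z) * (q⁻¹ * s * q) * q⁻¹ := by rw [h.es.z_sq]; group
          _ = z * (z * (q⁻¹ * s * q)) * q⁻¹ := by group
          _ = z * (s * q⁻¹) := by rw [← e]; group
      calc q * p * q⁻¹ * p⁻¹ * s = q * p * q⁻¹ * (p⁻¹ * s) := by group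
        _ = q * p * (q⁻¹ * s) * p⁻¹ := by rw [hps']; group
        _ = q * (p * z) * s * q⁻¹ * p⁻¹ := by rw [h1']; group
        _ = q * z * (p * s) * q⁻¹ * p⁻¹ := by rw [hpz]; group
        _ = (q * z) * s * p * q⁻¹ * p⁻¹ := by rw [hps]; group
        _ = z * (q * s) * p * q⁻¹ * p⁻¹ := by rw [hqz']; group
        _ = (z * z) * s * q * p * q⁻¹ * p⁻¹ := by rw [h1]; group
        _ = s * (q * p * q⁻¹ * p⁻¹) := by rw [h.es.z_sq]; group

theorem Q_conj_R (h : PairData Q Q' z s) {q r : G} (hq : q ∈ Q)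
    (hr : r ∈ (Q' ⊓ Subgroup.centralizer ({z} : Set G)) ⊔ (Q ⊓ Subgroup.centralizer ({s} : Set G))) :
    q * r * q⁻¹ ∈ (Q' ⊓ Subgroup.centralizer ({z} : Set G)) ⊔ (Q ⊓ Subgroup.centralizer ({s} : Set G)) := by
  have hle : (Q' ⊓ Subgroup.centralizer ({z} : Set G)) ⊔ (Q ⊓ Subgroup.centralizer ({s} : Set G)) ≤
      ((Q' ⊓ Subgroup.centralizer ({z} : Set G)) ⊔ (Q ⊓ Subgroup.centralizer ({s} : Set G))).comap
        (MulAut.conj q).toMonoidHom := by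
    apply sup_le
    · intro p hp
      rw [Subgroup.mem_comap]
      simp only [MulEquiv.coe_toMonoidHom, MulAut.conj_apply]
      have h1 := h.comm_QP' hq hp
      have := Subgroup.mul_mem _ (le_sup_right (a := Q' ⊓ Subgroup.centralizer ({z} : Set G)) h1)
        (le_sup_left (b := Q ⊓ Subgroup.centralizer ({s} : Set G)) hp)
      have e : q * p * q⁻¹ * p⁻¹ * p = q * p * q⁻¹ := by group
      rwa [e] at this
    · intro p hp
      rw [Subgroup.mem_comap]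
      simp only [MulEquiv.coe_toMonoidHom, MulAut.conj_apply]
      exact le_sup_right (a := Q' ⊓ Subgroup.centralizer ({z} : Set G)) (h.conj_P hq hp)
  have := hle hr
  rw [Subgroup.mem_comap] at this
  simpa using this

theorem Q'_conj_R (h : PairData Q Q' z s) {q r : G} (hq : q ∈ Q')
    (hr : r ∈ (Q' ⊓ Subgroup.centralizer ({z} : Set G)) ⊔ (Q ⊓ Subgroup.centralizer ({s} : Set G))) :
    q * r * q⁻¹ ∈ (Q' ⊓ Subgroup.centralizer ({z} : Set G)) ⊔ (Q ⊓ Subgroup.centralizer ({s} : Set G)) := by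
  rw [sup_comm] at hr ⊢
  exact h.symm.Q_conj_R hq hr

theorem X_le_normalizer_R [Finite G] (h : PairData Q Q' z s) :
    Q ⊔ Q' ≤ Subgroup.normalizer (((Q' ⊓ Subgroup.centralizer ({z} : Set G)) ⊔
      (Q ⊓ Subgroup.centralizer ({s} : Set G)) : Subgroup G) : Set G) :=
  sup_le (fun _ hq => mem_normalizer_of_conj_mem _ _ (fun _ hr => h.Q_conj_R hq hr))
    (fun _ hq => mem_normalizer_of_conj_mem _ _ (fun _ hr => h.Q'_conj_R hq hr))

/-- `t Q t⁻¹ ≤ Q'` whenever `t z t⁻¹ = s`. -/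
theorem conj_mem_Q' (h : PairData Q Q' z s) {g : G} (hs : s = g * z * g⁻¹)
    (hQ' : Q' = Q.map (MulAut.conj g).toMonoidHom) {t : G} (ht : t * z * t⁻¹ = s) {q : G}
    (hq : q ∈ Q) : t * q * t⁻¹ ∈ Q' := by
  rw [hQ', mem_map_conj_iff]
  have h1 : (g⁻¹ * t) * z = z * (g⁻¹ * t) := by
    calc g⁻¹ * t * z = g⁻¹ * (t * z * t⁻¹) * t := by group
      _ = g⁻¹ * (g * z * g⁻¹) * t := by rw [ht, hs]
      _ = z * (g⁻¹ * t) := by group
  have h2 := h.norm _ h1 q hq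
  have e : g⁻¹ * t * q * (g⁻¹ * t)⁻¹ = g⁻¹ * (t * q * t⁻¹) * g := by group
  rwa [e] at h2

/-- the braid relation modulo `R`. -/
theorem braid (h : PairData Q Q' z s) {g : G} (hs : s = g * z * g⁻¹)
    (hQ' : Q' = Q.map (MulAut.conj g).toMonoidHom) {q q' : G} (hq : q ∈ Q)
    (hqs : q * s * q⁻¹ = z * s) (hq' : q' ∈ Q') (hq'z : q' * z * q'⁻¹ = s * z) :
    q'⁻¹ * q⁻¹ * q' * q * q'⁻¹ * q ∈ Q' ⊓ Subgroup.centralizer ({z} : Set G) := by
  have hzs := h.zs_comm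
  have hzz := h.es.z_sq
  have hss := h.es'.z_sq
  have hqz : q * z * q⁻¹ = z := by rw [h.es.z_comm q hq]; group
  have hq's : q' * s * q'⁻¹ = s := by rw [h.es'.z_comm q' hq']; group
  have hq_sz : q * (s * z) * q⁻¹ = s := by
    calc q * (s * z) * q⁻¹ = (q * s * q⁻¹) * (q * z * q⁻¹) := by group
      _ = z * (s * z) := by rw [hqs, hqz]; group
      _ = (z * z) * s := by rw [← hzs]; group
      _ = s := by rw [hzz, one_mul]
  have hqs_inv : q⁻¹ * s * q = z * s := by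
    calc q⁻¹ * s * q = q⁻¹ * (q * (s * z) * q⁻¹) * q := by rw [hq_sz]
      _ = s * z := by group
      _ = z * s := hzs.symm
  have hqz_inv : q⁻¹ * z * q = z := by
    calc q⁻¹ * z * q = q⁻¹ * (q * z * q⁻¹) * q := by rw [hqz]
      _ = z := by group
  have hq'_sz : q' * (s * z) * q'⁻¹ = z := by
    calc q' * (s * z) * q'⁻¹ = (q' * s * q'⁻¹) * (q' * z * q'⁻¹) := by group
      _ = (s * s) * z := by rw [hq's, hq'z]; group
      _ = z := by rw [hss, one_mul]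
  have hq'z_inv : q'⁻¹ * z * q' = s * z := by
    calc q'⁻¹ * z * q' = q'⁻¹ * (q' * (s * z) * q'⁻¹) * q' := by rw [hq'_sz]
      _ = s * z := by group
  have hq'_zs_inv : q'⁻¹ * (z * s) * q' = z := by
    calc q'⁻¹ * (z * s) * q' = q'⁻¹ * (s * z) * q' := by rw [hzs]
      _ = q'⁻¹ * (q' * z * q'⁻¹) * q' := by rw [hq'z]
      _ = z := by group
  have ht : (q⁻¹ * q') * z * (q⁻¹ * q')⁻¹ = s := by
    calc (q⁻¹ * q') * z * (q⁻¹ * q')⁻¹ = q⁻¹ * (q' * z * q'⁻¹) * q := by group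
      _ = (q⁻¹ * s * q) * (q⁻¹ * z * q) := by rw [hq'z]; group
      _ = z * (s * z) := by rw [hqs_inv, hqz_inv]; group
      _ = (z * z) * s := by rw [← hzs]; group
      _ = s := by rw [hzz, one_mul]
  have hm := h.conj_mem_Q' hs hQ' ht hq
  rw [h.mem_P']
  constructor
  · have := Q'.mul_mem (Q'.inv_mem hq') hm
    have e : q'⁻¹ * (q⁻¹ * q' * q * (q⁻¹ * q')⁻¹) = q'⁻¹ * q⁻¹ * q' * q * q'⁻¹ * q := by group
    rwa [e] at this
  · have key : (q'⁻¹ * q⁻¹ * q' * q * q'⁻¹ * q) * z * (q'⁻¹ * q⁻¹ * q' * q * q'⁻¹ * q)⁻¹ = z := by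
      calc (q'⁻¹ * q⁻¹ * q' * q * q'⁻¹ * q) * z * (q'⁻¹ * q⁻¹ * q' * q * q'⁻¹ * q)⁻¹
          = q'⁻¹ * (q⁻¹ * (q' * (q * (q'⁻¹ * (q * z * q⁻¹) * q') * q⁻¹) * q'⁻¹) * q) * q' := by group
        _ = z := by rw [hqz, hq'z_inv, hq_sz, hq's, hqs_inv, hq'_zs_inv]
    calc q'⁻¹ * q⁻¹ * q' * q * q'⁻¹ * q * z
        = ((q'⁻¹ * q⁻¹ * q' * q * q'⁻¹ * q) * z * (q'⁻¹ * q⁻¹ * q' * q * q'⁻¹ * q)⁻¹) *
          (q'⁻¹ * q⁻¹ * q' * q * q'⁻¹ * q) := by group
      _ = z * (q'⁻¹ * q⁻¹ * q' * q * q'⁻¹ * q) := by rw [key]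

end PairData

end Cfsg.Agent.Lib.Helper90
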