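import Mathlib
import Cfsg.Prelude.Def_MonsterType
import Cfsg.Agent.Lib.Helper90.PairS3

set_option autoImplicit false

namespace Cfsg.Agent.Lib.Helper90

variable {G : Type*} [Group G]

namespace PairData

variable {Q Q' : Subgroup G} {z s : G}

/-- `|X : R| ≤ 6`. -/
theorem index_R_le [Finite G] (h : PairData Q Q' z s) {g : G} (hs : s = g * z * g⁻¹)
    (hQ' : Q' = Q.map (MulAut.conj g).toMonoidHom) (X R : Subgroup G) (hX : X = Q ⊔ Q')
    (hR : R = (Q' ⊓ Subgroup.centralizer ({z} : Set G)) ⊔ (Q ⊓ Subgroup.centralizer ({s} : Set G))) :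
    (R.subgroupOf X).index ≤ 6 := by
  obtain ⟨q, hq, hqs⟩ := h.es.exists_conj h.s_mem h.es'.z_ne h.ne.symm
  obtain ⟨q', hq', hq'z⟩ := h.es'.exists_conj h.z_mem h.es.z_ne h.ne
  have hRX : R ≤ X := by rw [hR, hX]; exact h.R_le_X
  have hXN : X ≤ Subgroup.normalizer (R : Set G) := by rw [hR, hX]; exact h.X_le_normalizer_R
  have hnorm : (R.subgroupOf X).Normal := (Subgroup.normal_subgroupOf_iff_le_normalizer hRX).mpr hXN
  have hQX : Q ≤ X := by rw [hX]; exact le_sup_left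
  have hQ'X : Q' ≤ X := by rw [hX]; exact le_sup_right
  have hPR : Q ⊓ Subgroup.centralizer ({s} : Set G) ≤ R := by rw [hR]; exact le_sup_right
  have hP'R : Q' ⊓ Subgroup.centralizer ({z} : Set G) ≤ R := by rw [hR]; exact le_sup_left
  have hzR : z ∈ R := hPR (h.E_le_P h.z_mem_E)
  have hsR : s ∈ R := hPR (h.E_le_P h.s_mem_E)
  have mk1 : ∀ (x : G) (hx : x ∈ X), x ∈ R →
      (QuotientGroup.mk (⟨x, hx⟩ : X) : X ⧸ R.subgroupOf X) = 1 := by
    intro x hx hxR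
    rw [QuotientGroup.eq_one_iff, Subgroup.mem_subgroupOf]
    exact hxR
  obtain ⟨a, ha_def⟩ : ∃ a : X ⧸ R.subgroupOf X, a = QuotientGroup.mk (⟨q, hQX hq⟩ : X) := ⟨_, rfl⟩
  obtain ⟨b, hb_def⟩ : ∃ b : X ⧸ R.subgroupOf X, b = QuotientGroup.mk (⟨q', hQ'X hq'⟩ : X) := ⟨_, rfl⟩
  have haa : a * a = 1 := by
    rw [ha_def, ← QuotientGroup.mk_mul]
    apply mk1
    rcases h.es.sq q hq with h1 | h1
    · rw [h1]; exact R.one_mem
    · rw [h1]; exact hzR
  have hbb : b * b = 1 := by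
    rw [hb_def, ← QuotientGroup.mk_mul]
    apply mk1
    rcases h.es'.sq q' hq' with h1 | h1
    · rw [h1]; exact R.one_mem
    · rw [h1]; exact hsR
  have hainv : a⁻¹ = a := inv_eq_of_mul_eq_one_right haa
  have hbinv : b⁻¹ = b := inv_eq_of_mul_eq_one_right hbb
  have hrel : b⁻¹ * a⁻¹ * b * a * b⁻¹ * a = 1 := by
    rw [ha_def, hb_def]
    simp only [← QuotientGroup.mk_mul, ← QuotientGroup.mk_inv]
    apply mk1
    exact hP'R (h.braid hs hQ' hq hqs hq' hq'z)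
  have hbr : a * b * a = b * a * b := by
    rw [hainv, hbinv] at hrel
    have h1 : (b * a * b) * (a * b * a) = 1 := by rw [← hrel]; group
    have h2 : a * b * a = (b * a * b)⁻¹ := eq_inv_of_mul_eq_one_right h1
    rw [h2, mul_inv_rev, mul_inv_rev, hainv, hbinv, mul_assoc]
  have hgen : Subgroup.closure ({a, b} : Set (X ⧸ R.subgroupOf X)) = ⊤ := by
    have haC : a ∈ Subgroup.closure ({a, b} : Set (X ⧸ R.subgroupOf X)) :=
      Subgroup.subset_closure (by simp)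
    have hbC : b ∈ Subgroup.closure ({a, b} : Set (X ⧸ R.subgroupOf X)) :=
      Subgroup.subset_closure (by simp)
    have hQK : Q ≤ ((Subgroup.closure ({a, b} : Set (X ⧸ R.subgroupOf X))).comap
        (QuotientGroup.mk' (R.subgroupOf X))).map X.subtype := by
      intro q1 hq1
      refine ⟨⟨q1, hQX hq1⟩, ?_, rfl⟩
      show (QuotientGroup.mk (⟨q1, hQX hq1⟩ : X) : X ⧸ R.subgroupOf X) ∈
        Subgroup.closure ({a, b} : Set (X ⧸ R.subgroupOf X))
      rcases h.es.coset_cases h.s_mem hq hqs hq1 with h1 | h1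
      · rw [mk1 _ _ (hPR ((h.mem_P q1).mpr ⟨hq1, h1⟩))]
        exact Subgroup.one_mem _
      · have h2 : q⁻¹ * q1 ∈ R := hPR ((h.mem_P _).mpr ⟨Q.mul_mem (Q.inv_mem hq) hq1, h1⟩)
        have h3 : (⟨q1, hQX hq1⟩ : X) = ⟨q, hQX hq⟩ * ⟨q⁻¹ * q1, hRX h2⟩ := by
          ext; simp
        rw [h3, QuotientGroup.mk_mul, mk1 _ _ h2, mul_one, ← ha_def]
        exact haC
    have hQ'K : Q' ≤ ((Subgroup.closure ({a, b} : Set (X ⧸ R.subgroupOf X))).comap
        (QuotientGroup.mk' (R.subgroupOf X))).map X.subtype := by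
      intro q1 hq1
      refine ⟨⟨q1, hQ'X hq1⟩, ?_, rfl⟩
      show (QuotientGroup.mk (⟨q1, hQ'X hq1⟩ : X) : X ⧸ R.subgroupOf X) ∈
        Subgroup.closure ({a, b} : Set (X ⧸ R.subgroupOf X))
      rcases h.es'.coset_cases h.z_mem hq' hq'z hq1 with h1 | h1
      · rw [mk1 _ _ (hP'R ((h.mem_P' q1).mpr ⟨hq1, h1⟩))]
        exact Subgroup.one_mem _
      · have h2 : q'⁻¹ * q1 ∈ R := hP'R ((h.mem_P' _).mpr ⟨Q'.mul_mem (Q'.inv_mem hq') hq1, h1⟩)
        have h3 : (⟨q1, hQ'X hq1⟩ : X) = ⟨q', hQ'X hq'⟩ * ⟨q'⁻¹ * q1, hRX h2⟩ := by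
          ext; simp
        rw [h3, QuotientGroup.mk_mul, mk1 _ _ h2, mul_one, ← hb_def]
        exact hbC
    have hXK : X ≤ ((Subgroup.closure ({a, b} : Set (X ⧸ R.subgroupOf X))).comap
        (QuotientGroup.mk' (R.subgroupOf X))).map X.subtype := by
      have h0 : Q ⊔ Q' ≤ _ := sup_le hQK hQ'K
      exact hX.le.trans h0
    rw [eq_top_iff]
    intro y _
    obtain ⟨x, rfl⟩ := QuotientGroup.mk_surjective y
    obtain ⟨x', hx', hxx'⟩ := hXK x.2
    have : x' = x := Subtype.ext hxx'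
    rw [← this]
    exact hx'
  have := (card_le_six_of_braid a b haa hbb hbr hgen).2
  rwa [← Subgroup.index_eq_card] at this

end PairData

end Cfsg.Agent.Lib.Helper90
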