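import Mathlib
import Cfsg.Prelude.Def_ClassificationK
import Cfsg.Agent.S0093
import Cfsg.Agent.Lib.Helper2.Pairing
import Cfsg.Agent.Lib.Helper90.Extraspecial

set_option autoImplicit false

namespace Cfsg.Agent.Lib.Helper90

open scoped commutatorElement IsMulCommutative

/-- a cyclic group has at most one involution. -/
theorem cyclic_involution_unique {A : Type*} [Group A] [IsCyclic A] [Finite A] {a b : A}
    (ha : a ^ 2 = 1) (hb : b ^ 2 = 1) (ha1 : a ≠ 1) (hb1 : b ≠ 1) : a = b := by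
  classical
  have := Fintype.ofFinite A
  by_contra hab
  have h1 := IsCyclic.card_pow_eq_one_le (α := A) (n := 2) (by norm_num)
  have h2 : ({1, a, b} : Finset A) ⊆ Finset.univ.filter (fun x : A => x ^ 2 = 1) := by
    intro x hx
    simp only [Finset.mem_insert, Finset.mem_singleton] at hx
    simp only [Finset.mem_filter, Finset.mem_univ, true_and]
    rcases hx with rfl | rfl | rfl
    · simp
    · exact ha
    · exact hb
  have h3 := Finset.card_le_card h2
  have h4 : ({1, a, b} : Finset A).card = 3 := by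
    rw [Finset.card_insert_of_notMem, Finset.card_pair hab]
    simp only [Finset.mem_insert, Finset.mem_singleton, not_or]
    exact ⟨ha1.symm, hb1.symm⟩
  omega

theorem cyclic_involution_unique' {T : Type*} [Group T] [Finite T] {A : Subgroup T} (hA : IsCyclic A)
    {a b : T} (haA : a ∈ A) (hbA : b ∈ A)
    (ha : a * a = 1) (hb : b * b = 1) (ha1 : a ≠ 1) (hb1 : b ≠ 1) : a = b := by
  have := cyclic_involution_unique (A := A) (a := ⟨a, haA⟩) (b := ⟨b, hbA⟩)
    (by ext; simpa [pow_two] using ha) (by ext; simpa [pow_two] using hb)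
    (fun h => ha1 (congrArg Subtype.val h)) (fun h => hb1 (congrArg Subtype.val h))
  exact congrArg Subtype.val this

variable {T : Type*} [Group T] [Finite T]

/-- an involution of a cyclic normal subgroup is central. -/
theorem central_of_cyclic_normal {A : Subgroup T} [hn : A.Normal] (hA : IsCyclic A) {a : T}
    (haA : a ∈ A) (ha : a * a = 1) : a ∈ Subgroup.center T := by
  rw [Subgroup.mem_center_iff]
  intro t
  by_cases ha1 : a = 1
  · rw [ha1]; simp
  have h1 : t * a * t⁻¹ = a := by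
    apply cyclic_involution_unique' hA (hn.conj_mem a haA t) haA _ ha _ ha1
    · calc t * a * t⁻¹ * (t * a * t⁻¹) = t * (a * a) * t⁻¹ := by group
        _ = 1 := by rw [ha]; group
    · intro h
      apply ha1
      have := congrArg (fun w => t⁻¹ * w * t) h
      simpa [mul_assoc] using this
  calc t * a = (t * a * t⁻¹) * t := by group
    _ = a * t := by rw [h1]

omit [Finite T] in
theorem comm_mul_left_of_central {h h' t : T} (hc : ⁅h', t⁆ ∈ Subgroup.center T) :
    ⁅h * h', t⁆ = ⁅h, t⁆ * ⁅h', t⁆ := by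
  have h1 : h * ⁅h', t⁆ = ⁅h', t⁆ * h := Subgroup.mem_center_iff.mp hc h
  have h2 : ⁅h, t⁆ * ⁅h', t⁆ = ⁅h', t⁆ * ⁅h, t⁆ := Subgroup.mem_center_iff.mp hc _
  have e1 : ⁅h * h', t⁆ = h * ⁅h', t⁆ * h⁻¹ * ⁅h, t⁆ := by
    simp only [commutatorElement_def]; group
  rw [e1, h1, h2]; group

omit [Finite T] in
theorem comm_mul_right_of_central {h t t' : T} (hc : ⁅h, t'⁆ ∈ Subgroup.center T) :
    ⁅h, t * t'⁆ = ⁅h, t⁆ * ⁅h, t'⁆ := by
  have h1 : t * ⁅h, t'⁆ = ⁅h, t'⁆ * t := Subgroup.mem_center_iff.mp hc t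
  have e1 : ⁅h, t * t'⁆ = ⁅h, t⁆ * (t * ⁅h, t'⁆) * t⁻¹ := by
    simp only [commutatorElement_def]; group
  rw [e1, h1]; group

/-- a `2`-group of symplectic type and exponent dividing four has all commutators central of
order at most two. -/
theorem symp_comm (h2 : IsPGroup 2 T)
    (hsymp : ∀ A : Subgroup T, A.Characteristic → IsMulCommutative A → IsCyclic A)
    (h4 : ∀ x : T, x ^ 4 = 1) (x y : T) :
    ⁅x, y⁆ ∈ Subgroup.center T ∧ ⁅x, y⁆ * ⁅x, y⁆ = 1 := by
  have : Fact (Nat.Prime 2) := ⟨Nat.prime_two⟩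
  obtain ⟨H, hHchar, hfr, hcomm, hcent⟩ := Cfsg.Agent.S0093.result h2
  have := hHchar
  obtain ⟨A, hA⟩ : ∃ A : Subgroup T, A = H ⊓ Subgroup.centralizer (H : Set T) := ⟨_, rfl⟩
  have hAchar : A.Characteristic := by rw [hA]; infer_instance
  have memA : ∀ a, a ∈ A ↔ a ∈ H ∧ ∀ h ∈ H, h * a = a * h := by
    intro a; rw [hA, Subgroup.mem_inf, Subgroup.mem_centralizer_iff]; rfl
  have hAcomm : IsMulCommutative A :=
    ⟨⟨fun a b => Subtype.ext (((memA b).1 b.2).2 a ((memA a).1 a.2).1)⟩⟩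
  have hAcyc := hsymp A hAchar hAcomm
  have : A.Normal := inferInstance
  -- (1) squares of elements of `H`
  have hsq : ∀ h ∈ H, h * h ∈ Subgroup.center T := by
    intro h hh
    apply central_of_cyclic_normal hAcyc
    · rw [memA]
      refine ⟨H.mul_mem hh hh, ?_⟩
      have h1 : (⟨h, hh⟩ : H) ^ 2 ∈ frattini H := pow_mem_frattini (h2.to_subgroup H) _
      have h2' : h * h ∈ Subgroup.centralizer (H : Set T) := hfr ⟨_, h1, by simp [pow_two]⟩
      exact Subgroup.mem_centralizer_iff.mp h2'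
    · calc h * h * (h * h) = h ^ 4 := by rw [← pow_two, ← pow_two, ← pow_mul]
        _ = 1 := h4 h
  -- (2) commutators with `H`
  have hc1 : ∀ h ∈ H, ∀ t : T, ⁅h, t⁆ ∈ Subgroup.center T ∧ ⁅h, t⁆ * ⁅h, t⁆ = 1 ∧ ⁅h, t⁆ ∈ A := by
    intro h hh t
    have hcA : ⁅h, t⁆ ∈ A := by
      rw [hA]; exact hcomm (Subgroup.commutator_mem_commutator hh (Subgroup.mem_top t))
    have hch : h * ⁅h, t⁆ = ⁅h, t⁆ * h := ((memA _).1 hcA).2 h hh
    have hsq1 : ⁅h, t⁆ * ⁅h, t⁆ = 1 := by
      have e1 : ⁅h * h, t⁆ = h * ⁅h, t⁆ * h⁻¹ * ⁅h, t⁆ := by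
        simp only [commutatorElement_def]; group
      have e2 : ⁅h * h, t⁆ = 1 := by
        rw [commutatorElement_eq_one_iff_mul_comm]
        exact (Subgroup.mem_center_iff.mp (hsq h hh) t).symm
      rw [e2, hch] at e1
      rw [e1]; group
    exact ⟨central_of_cyclic_normal hAcyc hcA hsq1, hsq1, hcA⟩
  -- (3) the pairing
  obtain ⟨X, hX⟩ : ∃ X : Subgroup T, X = Subgroup.centralizer (A : Set T) := ⟨_, rfl⟩
  have memX : ∀ t, t ∈ X ↔ ∀ a ∈ A, a * t = t * a := by
    intro t; rw [hX, Subgroup.mem_centralizer_iff]; rfl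
  have hHX : H ≤ X := by
    intro h hh
    rw [memX]
    intro a ha
    exact (((memA a).1 ha).2 h hh).symm
  have hZcyc : IsCyclic (Subgroup.center T) := hsymp _ inferInstance inferInstance
  let β : X →* (H →* Subgroup.center T) :=
    MonoidHom.mk' (fun t => MonoidHom.mk' (fun h => ⟨⁅(h : T), (t : T)⁆, (hc1 h h.2 t).1⟩)
      (by
        intro a b
        apply Subtype.ext
        exact comm_mul_left_of_central (hc1 b b.2 t).1))
      (by
        intro a b
        ext h
        exact comm_mul_right_of_central (hc1 h h.2 b).1)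
  have hβ : ∀ (t : X) (h : H), ((β t h : Subgroup.center T) : T) = ⁅(h : T), (t : T)⁆ :=
    fun _ _ => rfl
  have hk1 : β.ker.map X.subtype = A := by
    ext a
    constructor
    · rintro ⟨t, ht, rfl⟩
      rw [SetLike.mem_coe, MonoidHom.mem_ker] at ht
      have h1 : (t : T) ∈ Subgroup.centralizer (H : Set T) := by
        rw [Subgroup.mem_centralizer_iff]
        intro h hh
        have h3 : ((β t ⟨h, hh⟩ : Subgroup.center T) : T) = 1 := by rw [ht]; rfl
        rw [hβ] at h3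
        exact commutatorElement_eq_one_iff_mul_comm.mp h3
      rw [hA]
      exact ⟨hcent h1, h1⟩
    · intro ha
      have haX : a ∈ X := hHX ((memA a).1 ha).1
      refine ⟨⟨a, haX⟩, ?_, rfl⟩
      rw [SetLike.mem_coe, MonoidHom.mem_ker]
      ext h
      rw [hβ]
      exact commutatorElement_eq_one_iff_mul_comm.mpr (((memA a).1 ha).2 h h.2)
  have hk2 : β.flip.ker.map H.subtype = A := by
    ext a
    constructor
    · rintro ⟨h, hh, rfl⟩
      rw [SetLike.mem_coe, MonoidHom.mem_ker] at hh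
      rw [memA]
      refine ⟨h.2, fun k hk => ?_⟩
      have h3 : ((β ⟨k, hHX hk⟩ h : Subgroup.center T) : T) = 1 := by
        have : β.flip h ⟨k, hHX hk⟩ = 1 := by rw [hh]; rfl
        rw [MonoidHom.flip_apply] at this
        rw [this]; rfl
      rw [hβ] at h3
      exact (commutatorElement_eq_one_iff_mul_comm.mp h3).symm
    · intro ha
      refine ⟨⟨a, ((memA a).1 ha).1⟩, ?_, rfl⟩
      rw [SetLike.mem_coe, MonoidHom.mem_ker]
      ext t
      rw [MonoidHom.flip_apply, hβ]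
      exact commutatorElement_eq_one_iff_mul_comm.mpr ((memX t).1 t.2 a ha)
  have hXH : X = H := by
    symm
    apply Subgroup.eq_of_le_of_card_ge hHX
    have e1 := Subgroup.card_mul_index β.ker
    have e2 := Subgroup.card_mul_index β.flip.ker
    have e3 : Nat.card β.ker = Nat.card A := by
      rw [← hk1, Subgroup.card_map_of_injective X.subtype_injective]
    have e4 : Nat.card β.flip.ker = Nat.card A := by
      rw [← hk2, Subgroup.card_map_of_injective H.subtype_injective]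
    rw [← e1, ← e2, e3, e4, Cfsg.Agent.Lib.Helper2.index_ker_eq_index_flip_ker β]
  -- (4) index at most two
  obtain ⟨a, ha⟩ := hAcyc.exists_generator
  have haH : (a : T) ∈ H := ((memA a).1 a.2).1
  have hXa : ∀ t : T, ⁅(a : T), t⁆ = 1 → t ∈ H := by
    intro t ht
    rw [← hXH, memX]
    intro b hb
    obtain ⟨k, hk⟩ := Subgroup.mem_zpowers_iff.mp (ha ⟨b, hb⟩)
    have hb' : b = (a : T) ^ k := by
      have := congrArg Subtype.val hk
      simpa using this.symm
    have hc : Commute (a : T) t := commutatorElement_eq_one_iff_mul_comm.mp ht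
    rw [hb']
    exact (hc.zpow_left k).eq
  have hidx : ∀ t t' : T, t ∉ H → t' ∉ H → t⁻¹ * t' ∈ H := by
    intro t t' ht ht'
    apply hXa
    have h1 := hc1 a haH t
    have h2' := hc1 a haH t'
    have h3 : ⁅(a : T), t⁆ = ⁅(a : T), t'⁆ :=
      cyclic_involution_unique' hAcyc h1.2.2 h2'.2.2 h1.2.1 h2'.2.1 (fun h => ht (hXa t h))
        (fun h => ht' (hXa t' h))
    have h5 : ⁅(a : T), t * (t⁻¹ * t')⁆ = ⁅(a : T), t⁆ * ⁅(a : T), t⁻¹ * t'⁆ :=
      comm_mul_right_of_central (hc1 a haH _).1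
    rw [mul_inv_cancel_left, ← h3] at h5
    exact (mul_eq_left.mp h5.symm)
  -- (5) conclusion
  have hswap : ∀ u v : T, (⁅u, v⁆ ∈ Subgroup.center T ∧ ⁅u, v⁆ * ⁅u, v⁆ = 1) →
      (⁅v, u⁆ ∈ Subgroup.center T ∧ ⁅v, u⁆ * ⁅v, u⁆ = 1) := by
    intro u v ⟨h1, h2'⟩
    have e : ⁅v, u⁆ = ⁅u, v⁆⁻¹ := (commutatorElement_inv u v).symm
    rw [e]
    refine ⟨Subgroup.inv_mem _ h1, ?_⟩
    rw [← mul_inv_rev, h2', inv_one]
  by_cases hx : x ∈ H
  · exact ⟨(hc1 x hx y).1, (hc1 x hx y).2.1⟩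
  by_cases hy : y ∈ H
  · exact hswap _ _ ⟨(hc1 y hy x).1, (hc1 y hy x).2.1⟩
  have hh := hidx x y hx hy
  have h6 := hswap _ _ ⟨(hc1 _ hh x).1, (hc1 _ hh x).2.1⟩
  have e : ⁅x, y⁆ = x * ⁅x, x⁻¹ * y⁆ * x⁻¹ := by
    simp only [commutatorElement_def]; group
  have e2 : x * ⁅x, x⁻¹ * y⁆ = ⁅x, x⁻¹ * y⁆ * x := Subgroup.mem_center_iff.mp h6.1 x
  have e3 : ⁅x, y⁆ = ⁅x, x⁻¹ * y⁆ := by rw [e, e2]; group
  rw [e3]
  exact h6

end Cfsg.Agent.Lib.Helper90
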