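import Mathlib
import Cfsg.Agent.Lib.Helper90.Swap

set_option autoImplicit false

namespace Cfsg.Agent.Lib.Helper90

variable {G : Type*} [Group G]

/-- `Q` is a `2`-group with all commutators in `⟨z⟩`, `z` being the only central involution
(for instance a `2`-group of symplectic type and exponent four). -/
structure SES (Q : Subgroup G) (z : G) : Prop where
  two : IsPGroup 2 Q
  z_ne : z ≠ 1
  z_mem : z ∈ Q
  z_sq : z * z = 1
  z_comm : ∀ q ∈ Q, q * z = z * q
  cinv : ∀ y ∈ Q, (∀ q ∈ Q, q * y = y * q) → y * y = 1 → y = 1 ∨ y = z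
  comm : ∀ x ∈ Q, ∀ y ∈ Q, x * y = y * x ∨ x * y = z * (y * x)

namespace SES

variable {Q : Subgroup G} {z : G}

theorem exists_conj (h : SES Q z) {b : G} (hb : b ∈ Q) (hbb : b * b = 1) (hb1 : b ≠ 1)
    (hbz : b ≠ z) : ∃ q ∈ Q, q * b * q⁻¹ = z * b := by
  by_contra hcon
  push Not at hcon
  have : ∀ q ∈ Q, q * b = b * q := by
    intro q hq
    rcases h.comm q hq b hb with h1 | h1
    · exact h1
    · exfalso
      apply hcon q hq
      rw [h1]; group
  rcases h.cinv b hb this hbb with h1 | h1
  · exact hb1 h1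
  · exact hbz h1

theorem conj_eq (h : SES Q z) {q b : G} (hq : q ∈ Q) (hb : b ∈ Q) :
    q * b * q⁻¹ = b ∨ q * b * q⁻¹ = z * b := by
  rcases h.comm q hq b hb with h1 | h1
  · left; rw [h1]; group
  · right; rw [h1]; group

theorem coset_cases (h : SES Q z) {s q0 : G} (hs : s ∈ Q) (hq0 : q0 ∈ Q)
    (hq0s : q0 * s * q0⁻¹ = z * s) {q : G} (hq : q ∈ Q) :
    q * s = s * q ∨ (q0⁻¹ * q) * s = s * (q0⁻¹ * q) := by
  rcases h.comm q hq s hs with h1 | h1
  · left; exact h1
  · right
    have h3 : q0⁻¹ * (z * s) = s * q0⁻¹ := by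
      rw [← hq0s]; group
    calc q0⁻¹ * q * s = q0⁻¹ * (q * s) := by group
      _ = q0⁻¹ * (z * s) * q := by rw [h1]; group
      _ = s * (q0⁻¹ * q) := by rw [h3]; group

theorem commutes_all (h : SES Q z) {s q0 : G} (hs : s ∈ Q) (hq0 : q0 ∈ Q)
    (hq0s : q0 * s * q0⁻¹ = z * s) {a : G} (ha0 : a * q0 = q0 * a)
    (ha : ∀ p ∈ Q, p * s = s * p → a * p = p * a) : ∀ q ∈ Q, a * q = q * a := by
  intro q hq
  rcases h.coset_cases hs hq0 hq0s hq with h1 | h1
  · exact ha q hq h1
  · have h2 := ha _ (Q.mul_mem (Q.inv_mem hq0) hq) h1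
    calc a * q = a * q0 * (q0⁻¹ * q) := by group
      _ = q0 * (a * (q0⁻¹ * q)) := by rw [ha0]; group
      _ = q * a := by rw [h2]; group

/-- an involution centralizing `C_Q(s)` lies in `{1, z, s, zs}`. -/
theorem involution_centralizing (h : SES Q z)
    (hCQ : ∀ c : G, (∀ q ∈ Q, c * q = q * c) → c ∈ Q)
    (hnorm : ∀ c : G, c * z = z * c → ∀ q ∈ Q, c * q * c⁻¹ ∈ Q)
    {s : G} (hs : s ∈ Q) (hs1 : s ≠ 1) (hsz : s ≠ z)
    (hss : s * s = 1) {a : G} (haa : a * a = 1)
    (hac : ∀ p ∈ Q, p * s = s * p → a * p = p * a) :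
    a = 1 ∨ a = z ∨ a = s ∨ a = z * s := by
  obtain ⟨q0, hq0, hq0s⟩ := h.exists_conj hs hss hs1 hsz
  have hzs : z * s = s * z := (h.z_comm s hs).symm
  have haz : a * z = z * a := hac z h.z_mem hzs
  have hq1 : a * q0 * a⁻¹ ∈ Q := hnorm a haz q0 hq0
  obtain ⟨y, hy_def⟩ : ∃ y, y = q0⁻¹ * (a * q0 * a⁻¹) := ⟨_, rfl⟩
  have hyQ : y ∈ Q := by rw [hy_def]; exact Q.mul_mem (Q.inv_mem hq0) hq1
  have hq1y : a * q0 * a⁻¹ = q0 * y := by rw [hy_def]; group
  have centQ : ∀ c : G, (∀ q ∈ Q, c * q = q * c) → c * c = 1 → c = 1 ∨ c = z := by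
    intro c hc hcc
    exact h.cinv c (hCQ c hc) (fun q hq => (hc q hq).symm) hcc
  have hyc : ∀ p ∈ Q, p * s = s * p → y * p = p * y := by
    intro p hp hps
    have hap := hac p hp hps
    have hap' : a * p * a⁻¹ = p := by rw [hap]; group
    have hap'' : a * p⁻¹ * a⁻¹ = p⁻¹ := by
      have := congrArg (·⁻¹) hap'
      simpa [mul_assoc] using this
    rcases h.conj_eq hp hq0 with h1 | h1
    · have h2 : p * (q0 * y) * p⁻¹ = q0 * y := by
        rw [← hq1y]
        calc p * (a * q0 * a⁻¹) * p⁻¹ = (a * p * a⁻¹) * (a * q0 * a⁻¹) * (a * p⁻¹ * a⁻¹) := by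
              rw [hap', hap'']
          _ = a * (p * q0 * p⁻¹) * a⁻¹ := by group
          _ = a * q0 * a⁻¹ := by rw [h1]
      have h3 : p * y * p⁻¹ = y := by
        calc p * y * p⁻¹ = (p * q0 * p⁻¹)⁻¹ * (p * (q0 * y) * p⁻¹) := by group
          _ = y := by rw [h1, h2]; group
      calc y * p = (p * y * p⁻¹) * p := by rw [h3]
        _ = p * y := by group
    · have haz' : a * z * a⁻¹ = z := by rw [haz]; group
      have h2 : p * (q0 * y) * p⁻¹ = z * (q0 * y) := by
        rw [← hq1y]
        calc p * (a * q0 * a⁻¹) * p⁻¹ = (a * p * a⁻¹) * (a * q0 * a⁻¹) * (a * p⁻¹ * a⁻¹) := by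
              rw [hap', hap'']
          _ = a * (p * q0 * p⁻¹) * a⁻¹ := by group
          _ = (a * z * a⁻¹) * (a * q0 * a⁻¹) := by rw [h1]; group
          _ = z * (a * q0 * a⁻¹) := by rw [haz']
      have h3 : p * y * p⁻¹ = y := by
        calc p * y * p⁻¹ = (p * q0 * p⁻¹)⁻¹ * (p * (q0 * y) * p⁻¹) := by group
          _ = y := by rw [h1, h2]; group
      calc y * p = (p * y * p⁻¹) * p := by rw [h3]
        _ = p * y := by group
  have hq0s' : q0 * s = z * s * q0 := by
    rw [← hq0s]; group
  have hzq0 : q0 * z = z * q0 := h.z_comm q0 hq0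
  have hys : y * s = s * y := hyc s hs rfl
  have hay : a * y = y * a := hac y hyQ hys
  have hainv : a⁻¹ = a := inv_eq_of_mul_eq_one_right haa
  -- y is an involution or trivial
  have hyy : y * y = 1 := by
    have h1 : a * (q0 * y) * a⁻¹ = q0 := by
      rw [← hq1y]
      calc a * (a * q0 * a⁻¹) * a⁻¹ = (a * a) * q0 * (a * a)⁻¹ := by group
        _ = q0 := by rw [haa]; group
    have h2 : a * (q0 * y) * a⁻¹ = q0 * y * y := by
      calc a * (q0 * y) * a⁻¹ = (a * q0 * a⁻¹) * (a * y) * a⁻¹ := by group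
        _ = q0 * y * y := by rw [hq1y, hay]; group
    rw [h1] at h2
    calc y * y = q0⁻¹ * (q0 * y * y) := by group
      _ = 1 := by rw [← h2]; group
  have e1 : s * q0 = z * (q0 * s) := by
    rw [hq0s']
    calc s * q0 = (z * z) * s * q0 := by rw [h.z_sq]; group
      _ = z * (z * s * q0) := by group
  -- the square of q0 commutes with s
  have hq00 : (q0 * q0) * s = s * (q0 * q0) := by
    calc q0 * q0 * s = q0 * (q0 * s) := by group
      _ = (q0 * z) * s * q0 := by rw [hq0s']; group
      _ = z * (q0 * s) * q0 := by rw [hzq0]; group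
      _ = (z * z) * s * q0 * q0 := by rw [hq0s']; group
      _ = s * (q0 * q0) := by rw [h.z_sq]; group
  have hsq : (q0 * y) * (q0 * y) = q0 * q0 := by
    rw [← hq1y]
    have h1 : a * (q0 * q0) = (q0 * q0) * a := hac _ (Q.mul_mem hq0 hq0) hq00
    calc a * q0 * a⁻¹ * (a * q0 * a⁻¹) = a * (q0 * q0) * a⁻¹ := by group
      _ = q0 * q0 := by rw [h1]; group
  have hbad : q0 * s * (q0 * s) ≠ q0 * q0 := by
    intro hcon
    apply h.z_ne
    have e : q0 * s * (q0 * s) = z * (q0 * q0) := by
      calc q0 * s * (q0 * s) = q0 * (s * q0) * s := by group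
        _ = (q0 * z) * q0 * (s * s) := by rw [e1]; group
        _ = z * (q0 * q0) := by rw [hzq0, hss]; group
    rw [e] at hcon
    calc z = z * (q0 * q0) * (q0 * q0)⁻¹ := by group
      _ = (q0 * q0) * (q0 * q0)⁻¹ := by rw [hcon]
      _ = 1 := by group
  rcases h.comm y hyQ q0 hq0 with hyq | hyq
  · -- y central in Q
    have h2 := h.commutes_all hs hq0 hq0s hyq hyc
    rcases h.cinv y hyQ (fun q hq => (h2 q hq).symm) hyy with hy | hy
    · have h1 : a * q0 = q0 * a := by
        have : a * q0 * a⁻¹ = q0 := by rw [hq1y, hy, mul_one]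
        calc a * q0 = (a * q0 * a⁻¹) * a := by group
          _ = q0 * a := by rw [this]
      rcases centQ a (h.commutes_all hs hq0 hq0s h1 hac) haa with h2 | h2
      · exact Or.inl h2
      · exact Or.inr (Or.inl h2)
    · have h0 : a * q0 = q0 * z * a := by
        calc a * q0 = (a * q0 * a⁻¹) * a := by group
          _ = q0 * z * a := by rw [hq1y, hy]
      have has : a * s = s * a := hac s hs rfl
      have h1 : (a * s) * q0 = q0 * (a * s) := by
        calc a * s * q0 = a * (s * q0) := by group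
          _ = (a * z) * q0 * s := by rw [e1]; group
          _ = z * (a * q0) * s := by rw [haz]; group
          _ = z * (q0 * z) * a * s := by rw [h0]; group
          _ = (z * z) * q0 * a * s := by rw [hzq0]; group
          _ = q0 * (a * s) := by rw [h.z_sq]; group
      have h2 : ∀ p ∈ Q, p * s = s * p → (a * s) * p = p * (a * s) := by
        intro p hp hps
        calc a * s * p = a * (s * p) := by group
          _ = (a * p) * s := by rw [← hps]; group
          _ = p * (a * s) := by rw [hac p hp hps]; group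
      have h4 : (a * s) * (a * s) = 1 := by
        calc a * s * (a * s) = a * (s * a) * s := by group
          _ = (a * a) * (s * s) := by rw [← has]; group
          _ = 1 := by rw [haa, hss, one_mul]
      rcases centQ _ (h.commutes_all hs hq0 hq0s h1 h2) h4 with h3 | h3
      · right; right; left
        calc a = (a * s) * s := by rw [mul_assoc, hss, mul_one]
          _ = s := by rw [h3, one_mul]
      · right; right; right
        calc a = (a * s) * s := by rw [mul_assoc, hss, mul_one]
          _ = z * s := by rw [h3]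
  · -- y anticommutes with q0: impossible
    exfalso
    have hzy : y * z = z * y := h.z_comm y hyQ
    have h2 : (y * s) * q0 = q0 * (y * s) := by
      calc y * s * q0 = y * (s * q0) := by group
        _ = (y * z) * q0 * s := by rw [e1]; group
        _ = z * (y * q0) * s := by rw [hzy]; group
        _ = (z * z) * q0 * y * s := by rw [hyq]; group
        _ = q0 * (y * s) := by rw [h.z_sq]; group
    have h3 : ∀ p ∈ Q, p * s = s * p → (y * s) * p = p * (y * s) := by
      intro p hp hps
      calc y * s * p = y * (s * p) := by group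
        _ = (y * p) * s := by rw [← hps]; group
        _ = p * (y * s) := by rw [hyc p hp hps]; group
    have h4 := h.commutes_all hs hq0 hq0s h2 h3
    have h5 : (y * s) * (y * s) = 1 := by
      calc y * s * (y * s) = y * (s * y) * s := by group
        _ = (y * y) * (s * s) := by rw [← hys]; group
        _ = 1 := by rw [hyy, hss, one_mul]
    rcases h.cinv (y * s) (Q.mul_mem hyQ hs) (fun q hq => (h4 q hq).symm) h5 with h6 | h6
    · have hy : y = s := by
        calc y = (y * s) * s := by rw [mul_assoc, hss, mul_one]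
          _ = s := by rw [h6, one_mul]
      rw [hy] at hsq
      exact hbad hsq
    · have hy : y = z * s := by
        calc y = (y * s) * s := by rw [mul_assoc, hss, mul_one]
          _ = z * s := by rw [h6]
      rw [hy] at hsq
      apply hbad
      rw [← hsq]
      symm
      have hsz' : s * z = z * s := hzs.symm
      calc q0 * (z * s) * (q0 * (z * s)) = (q0 * z) * s * ((q0 * z) * s) := by group
        _ = z * q0 * s * (z * q0 * s) := by rw [hzq0]
        _ = z * q0 * (s * z) * q0 * s := by group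
        _ = z * (q0 * z) * s * q0 * s := by rw [hsz']; group
        _ = (z * z) * q0 * s * q0 * s := by rw [hzq0]; group
        _ = q0 * s * (q0 * s) := by rw [h.z_sq]; group

end SES

end Cfsg.Agent.Lib.Helper90
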