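import Mathlib
import Cfsg.Agent.Lib.Helper90.Symp1

set_option autoImplicit false

namespace Cfsg.Agent.Lib.Helper90

variable {G : Type*} [Group G]

namespace SES

variable {Q : Subgroup G} {z : G}

/-- The key Sylow argument: if `s = z^g ∈ Q`, `s ≠ z`, then some element fixes `s` and moves
`z` to `zs`. -/
theorem exists_transvection [Finite G] (h : SES Q z)
    (hCQ : ∀ c : G, (∀ q ∈ Q, c * q = q * c) → c ∈ Q)
    (hnorm : ∀ c : G, c * z = z * c → ∀ q ∈ Q, c * q * c⁻¹ ∈ Q)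
    {g s : G} (hs_def : s = g * z * g⁻¹) (hs : s ∈ Q) (hsz : s ≠ z) :
    ∃ x : G, x * s * x⁻¹ = s ∧ x * z * x⁻¹ = z * s := by
  have : Fact (Nat.Prime 2) := ⟨Nat.prime_two⟩
  have hs1 : s ≠ 1 := by
    intro h1
    apply h.z_ne
    rw [hs_def] at h1
    have := congrArg (fun w => g⁻¹ * w * g) h1
    simpa [mul_assoc] using this
  have hss : s * s = 1 := by
    rw [hs_def]
    calc g * z * g⁻¹ * (g * z * g⁻¹) = g * (z * z) * g⁻¹ := by group
      _ = 1 := by rw [h.z_sq]; group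
  obtain ⟨C, hC⟩ : ∃ C : Subgroup G, C = Subgroup.centralizer {z} ⊓ Subgroup.centralizer {s} := ⟨_, rfl⟩
  have memC : ∀ c, c ∈ C ↔ c * z = z * c ∧ c * s = s * c := by
    intro c
    rw [hC, Subgroup.mem_inf, Subgroup.mem_centralizer_singleton_iff,
      Subgroup.mem_centralizer_singleton_iff]
  obtain ⟨P, hP⟩ : ∃ P : Subgroup G, P = Q ⊓ Subgroup.centralizer {s} := ⟨_, rfl⟩
  have memP : ∀ c, c ∈ P ↔ c ∈ Q ∧ c * s = s * c := by
    intro c
    rw [hP, Subgroup.mem_inf, Subgroup.mem_centralizer_singleton_iff]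
  have hPC : P ≤ C := fun p hp => (memC p).mpr ⟨h.z_comm p ((memP p).mp hp).1, ((memP p).mp hp).2⟩
  have hP2 : IsPGroup 2 P := h.two.to_le (by rw [hP]; exact inf_le_left)
  obtain ⟨S0, hS0⟩ := (hP2.comap_subtype (K := C)).exists_le_sylow
  obtain ⟨S, hS⟩ : ∃ S : Subgroup G, S = (S0 : Subgroup C).map C.subtype := ⟨_, rfl⟩
  have hPS : P ≤ S := by
    intro p hp
    rw [hS]
    exact ⟨⟨p, hPC hp⟩, hS0 (Subgroup.mem_subgroupOf.mpr hp), rfl⟩
  have hSC : S ≤ C := by rw [hS]; exact Subgroup.map_subtype_le _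
  have hS2 : IsPGroup 2 S := by rw [hS]; exact S0.2.map _
  obtain ⟨H', hH'⟩ : ∃ H' : Subgroup G, H' = Subgroup.centralizer {s} := ⟨_, rfl⟩
  have memH' : ∀ c, c ∈ H' ↔ c * s = s * c := by
    intro c
    rw [hH', Subgroup.mem_centralizer_singleton_iff]
  have hSH' : S ≤ H' := fun u hu => (memH' u).mpr ((memC u).mp (hSC hu)).2
  obtain ⟨T0, hT0⟩ := (hS2.comap_subtype (K := H')).exists_le_sylow
  obtain ⟨T, hT⟩ : ∃ T : Subgroup G, T = (T0 : Subgroup H').map H'.subtype := ⟨_, rfl⟩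
  have hST : S ≤ T := by
    intro u hu
    rw [hT]
    exact ⟨⟨u, hSH' hu⟩, hT0 (Subgroup.mem_subgroupOf.mpr hu), rfl⟩
  have hTH' : T ≤ H' := by rw [hT]; exact Subgroup.map_subtype_le _
  have hT2 : IsPGroup 2 T := by rw [hT]; exact T0.2.map _
  -- the conjugate of Q
  obtain ⟨Q', hQ'⟩ : ∃ Q' : Subgroup G, Q' = Q.map (MulAut.conj g).toMonoidHom := ⟨_, rfl⟩
  have memQ' : ∀ c, c ∈ Q' ↔ g⁻¹ * c * g ∈ Q := by
    intro c; rw [hQ', mem_map_conj_iff]
  have hQ'2 : IsPGroup 2 Q' := by rw [hQ']; exact h.two.map _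
  have hQ'H' : Q' ≤ H' := by
    intro c hc
    rw [memH', hs_def]
    have h1 := h.z_comm _ ((memQ' c).mp hc)
    calc c * (g * z * g⁻¹) = g * ((g⁻¹ * c * g) * z) * g⁻¹ := by group
      _ = g * (z * (g⁻¹ * c * g)) * g⁻¹ := by rw [h1]
      _ = g * z * g⁻¹ * c := by group
  have hQ'n : (Q'.subgroupOf H').Normal := by
    constructor
    intro n hn c
    rw [Subgroup.mem_subgroupOf] at hn ⊢
    have hc : (c : G) * s = s * c := (memH' c).mp c.2
    have h1 : (g⁻¹ * c * g) * z = z * (g⁻¹ * c * g) := by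
      rw [hs_def] at hc
      calc g⁻¹ * c * g * z = g⁻¹ * (c * (g * z * g⁻¹)) * g := by group
        _ = g⁻¹ * ((g * z * g⁻¹) * c) * g := by rw [hc]
        _ = z * (g⁻¹ * c * g) := by group
    have h3 := hnorm _ h1 _ ((memQ' _).mp hn)
    rw [memQ']
    have e : g⁻¹ * ((c * n * c⁻¹ : H') : G) * g = g⁻¹ * c * g * (g⁻¹ * n * g) * (g⁻¹ * c * g)⁻¹ := by
      simp only [Subgroup.coe_mul, InvMemClass.coe_inv]
      group
    rw [e]; exact h3
  have hQ'T : Q' ≤ T := by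
    intro c hc
    have := normal_pGroup_le_sylow T0 (Q'.subgroupOf H') (hQ'2.comap_subtype)
    rw [hT]
    exact ⟨⟨c, hQ'H' hc⟩, this (Subgroup.mem_subgroupOf.mpr hc), rfl⟩
  have hne : S ≠ T := by
    intro heq
    have h1 : ∀ q ∈ Q, (g⁻¹ * z * g) * q = q * (g⁻¹ * z * g) := by
      intro q hq
      have h2 : g * q * g⁻¹ ∈ Q' := by
        rw [memQ']
        have e : g⁻¹ * (g * q * g⁻¹) * g = q := by group
        rw [e]; exact hq
      have h3 := ((memC _).mp (hSC (heq ▸ hQ'T h2))).1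
      calc g⁻¹ * z * g * q = g⁻¹ * (z * (g * q * g⁻¹)) * g := by group
        _ = g⁻¹ * ((g * q * g⁻¹) * z) * g := by rw [h3]
        _ = q * (g⁻¹ * z * g) := by group
    have h2 : g⁻¹ * z * g ∈ Q := hCQ _ h1
    have h4 : (g⁻¹ * z * g) * (g⁻¹ * z * g) = 1 := by
      calc g⁻¹ * z * g * (g⁻¹ * z * g) = g⁻¹ * (z * z) * g := by group
        _ = 1 := by rw [h.z_sq]; group
    rcases h.cinv _ h2 (fun q hq => (h1 q hq).symm) h4 with h3 | h3
    · apply h.z_ne
      have := congrArg (fun w => g * w * g⁻¹) h3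
      simpa [mul_assoc] using this
    · apply hsz
      rw [hs_def]
      have := congrArg (fun w => g * w * g⁻¹) h3
      simpa [mul_assoc] using this.symm
  obtain ⟨x, hxT, hxS, hxN⟩ := exists_normalizing_of_lt hT2 (lt_of_le_of_ne hST hne)
  have hxs : x * s = s * x := (memH' x).mp (hTH' hxT)
  have hxC : x ∉ C := by
    intro hxC
    apply hxS
    have hp : IsPGroup 2 ((T ⊓ C).subgroupOf C) := (hT2.to_le inf_le_left).comap_subtype
    have hle : (S0 : Subgroup C) ≤ (T ⊓ C).subgroupOf C := by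
      intro u hu
      rw [Subgroup.mem_subgroupOf]
      refine ⟨hST ?_, u.2⟩
      rw [hS]
      exact ⟨u, hu, rfl⟩
    have heq := S0.is_maximal' hp hle
    have h1 : (⟨x, hxC⟩ : C) ∈ (T ⊓ C).subgroupOf C := Subgroup.mem_subgroupOf.mpr ⟨hxT, hxC⟩
    rw [heq] at h1
    rw [hS]
    exact ⟨⟨x, hxC⟩, h1, rfl⟩
  have hxz : x * z ≠ z * x := fun hc => hxC ((memC x).mpr ⟨hc, hxs⟩)
  refine ⟨x, by rw [hxs]; group, ?_⟩
  have hcomm : ∀ p ∈ Q, p * s = s * p → (x * z * x⁻¹) * p = p * (x * z * x⁻¹) := by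
    intro p hp hps
    have hpS : p ∈ S := hPS ((memP p).mpr ⟨hp, hps⟩)
    have h1 : x⁻¹ * p * x ∈ S := by
      rw [Subgroup.mem_normalizer_iff] at hxN
      rw [hxN]
      have e : x * (x⁻¹ * p * x) * x⁻¹ = p := by group
      rw [e]; exact hpS
    have h2 := ((memC _).mp (hSC h1)).1
    calc x * z * x⁻¹ * p = x * (z * (x⁻¹ * p * x)) * x⁻¹ := by group
      _ = x * ((x⁻¹ * p * x) * z) * x⁻¹ := by rw [h2]
      _ = p * (x * z * x⁻¹) := by group
  have hinv : (x * z * x⁻¹) * (x * z * x⁻¹) = 1 := by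
    calc x * z * x⁻¹ * (x * z * x⁻¹) = x * (z * z) * x⁻¹ := by group
      _ = 1 := by rw [h.z_sq]; group
  rcases h.involution_centralizing hCQ hnorm hs hs1 hsz hss hinv hcomm with h1 | h1 | h1 | h1
  · exfalso
    apply h.z_ne
    have := congrArg (fun w => x⁻¹ * w * x) h1
    simpa [mul_assoc] using this
  · exfalso
    apply hxz
    calc x * z = (x * z * x⁻¹) * x := by group
      _ = z * x := by rw [h1]
  · exfalso
    apply hsz
    have h2 : x * z * x⁻¹ = x * s * x⁻¹ := by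
      rw [h1, hxs]; group
    have := congrArg (fun w => x⁻¹ * w * x) h2
    simpa [mul_assoc] using this.symm
  · exact h1

/-- transport of the structure to a conjugate. -/
theorem conj (h : SES Q z) (g : G) :
    SES (Q.map (MulAut.conj g).toMonoidHom) (g * z * g⁻¹) := by
  have key : ∀ a b : G, g⁻¹ * a * g = g⁻¹ * b * g → a = b := by
    intro a b hab
    have := congrArg (fun w => g * w * g⁻¹) hab
    simpa [mul_assoc] using this
  refine ⟨h.two.map _, ?_, ?_, ?_, ?_, ?_, ?_⟩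
  · intro h1
    apply h.z_ne
    have := congrArg (fun w => g⁻¹ * w * g) h1
    simpa [mul_assoc] using this
  · rw [mem_map_conj_iff]
    have e : g⁻¹ * (g * z * g⁻¹) * g = z := by group
    rw [e]; exact h.z_mem
  · calc g * z * g⁻¹ * (g * z * g⁻¹) = g * (z * z) * g⁻¹ := by group
      _ = 1 := by rw [h.z_sq]; group
  · intro q hq
    rw [mem_map_conj_iff] at hq
    have h1 := h.z_comm _ hq
    calc q * (g * z * g⁻¹) = g * ((g⁻¹ * q * g) * z) * g⁻¹ := by group
      _ = g * (z * (g⁻¹ * q * g)) * g⁻¹ := by rw [h1]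
      _ = g * z * g⁻¹ * q := by group
  · intro y hy hyc hyy
    rw [mem_map_conj_iff] at hy
    have h1 : ∀ q ∈ Q, q * (g⁻¹ * y * g) = (g⁻¹ * y * g) * q := by
      intro q hq
      have h2 : g * q * g⁻¹ ∈ Q.map (MulAut.conj g).toMonoidHom := by
        rw [mem_map_conj_iff]
        have e : g⁻¹ * (g * q * g⁻¹) * g = q := by group
        rw [e]; exact hq
      have h3 := hyc _ h2
      calc q * (g⁻¹ * y * g) = g⁻¹ * ((g * q * g⁻¹) * y) * g := by group
        _ = g⁻¹ * (y * (g * q * g⁻¹)) * g := by rw [h3]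
        _ = g⁻¹ * y * g * q := by group
    have h2 : (g⁻¹ * y * g) * (g⁻¹ * y * g) = 1 := by
      calc g⁻¹ * y * g * (g⁻¹ * y * g) = g⁻¹ * (y * y) * g := by group
        _ = 1 := by rw [hyy]; group
    rcases h.cinv _ hy h1 h2 with h3 | h3
    · left
      apply key
      rw [h3]; group
    · right
      apply key
      rw [h3]; group
  · intro x hx y hy
    rw [mem_map_conj_iff] at hx hy
    rcases h.comm _ hx _ hy with h1 | h1
    · left
      apply key
      calc g⁻¹ * (x * y) * g = (g⁻¹ * x * g) * (g⁻¹ * y * g) := by group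
        _ = (g⁻¹ * y * g) * (g⁻¹ * x * g) := h1
        _ = g⁻¹ * (y * x) * g := by group
    · right
      apply key
      calc g⁻¹ * (x * y) * g = (g⁻¹ * x * g) * (g⁻¹ * y * g) := by group
        _ = z * ((g⁻¹ * y * g) * (g⁻¹ * x * g)) := h1
        _ = g⁻¹ * (g * z * g⁻¹ * (y * x)) * g := by group

theorem closure_pair_cases {z s : G} (hzz : z * z = 1) (hss : s * s = 1) (hzs : z * s = s * z)
    {u : G} (hu : u ∈ Subgroup.closure ({z, s} : Set G)) :
    u = 1 ∨ u = z ∨ u = s ∨ u = z * s := by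
  have hszz : s * z * z = s := by rw [mul_assoc, hzz, mul_one]
  have e1 : z * s * z = s := by rw [hzs, hszz]
  have e2 : z * s * s = z := by rw [mul_assoc, hss, mul_one]
  have hmul : ∀ a b : G, (a = 1 ∨ a = z ∨ a = s ∨ a = z * s) → (b = 1 ∨ b = z ∨ b = s ∨ b = z * s) →
      (a * b = 1 ∨ a * b = z ∨ a * b = s ∨ a * b = z * s) := by
    intro a b ha hb
    rcases ha with rfl | rfl | rfl | rfl <;> rcases hb with rfl | rfl | rfl | rfl
    · simp
    · simp
    · simp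
    · simp
    · simp
    · left; exact hzz
    · simp
    · right; right; left; rw [← mul_assoc, hzz, one_mul]
    · simp
    · right; right; right; exact hzs.symm
    · left; exact hss
    · right; left; rw [hzs, ← mul_assoc, hss, one_mul]
    · simp
    · right; right; left; exact e1
    · right; left; exact e2
    · left
      calc z * s * (z * s) = (z * s * z) * s := by group
        _ = 1 := by rw [e1, hss]
  induction hu using Subgroup.closure_induction with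
  | mem x hx =>
    rcases hx with rfl | hx
    · right; left; rfl
    · right; right; left; exact hx
  | one => left; rfl
  | mul a b _ _ ha hb => exact hmul a b ha hb
  | inv a _ ha =>
    rcases ha with rfl | rfl | rfl | rfl
    · simp
    · right; left; exact inv_eq_of_mul_eq_one_right hzz
    · right; right; left; exact inv_eq_of_mul_eq_one_right hss
    · right; right; right
      apply inv_eq_of_mul_eq_one_right
      calc z * s * (z * s) = (z * s * z) * s := by group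
        _ = 1 := by rw [e1, hss]

/-- The main theorem on `2`-groups of symplectic type and exponent four. -/
theorem main [Finite G] (h : SES Q z)
    (hCQ : ∀ c : G, (∀ q ∈ Q, c * q = q * c) → c ∈ Q)
    (hnorm : ∀ c : G, c * z = z * c → ∀ q ∈ Q, c * q * c⁻¹ ∈ Q)
    (g : G) (hsQ : g * z * g⁻¹ ∈ Q) (hsz : g * z * g⁻¹ ≠ z) :
    z ∈ Q.map (MulAut.conj g).toMonoidHom ∧
      ∀ u ∈ Subgroup.closure ({z, g * z * g⁻¹} : Set G),
        ∀ v ∈ Subgroup.closure ({z, g * z * g⁻¹} : Set G),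
        u ≠ 1 → v ≠ 1 → u ≠ v →
          ∃ x ∈ Q ⊔ Q.map (MulAut.conj g).toMonoidHom,
            x * z * x⁻¹ = u ∧ x * (g * z * g⁻¹) * x⁻¹ = v := by
  obtain ⟨s, hs_def⟩ : ∃ s, s = g * z * g⁻¹ := ⟨_, rfl⟩
  have hconj := h.conj g
  rw [← hs_def] at hsQ hsz hconj ⊢
  have hs1 : s ≠ 1 := hconj.z_ne
  have hss : s * s = 1 := hconj.z_sq
  obtain ⟨q0, hq0, hq0s⟩ := h.exists_conj hsQ hss hs1 hsz
  have hq0z : q0 * z * q0⁻¹ = z := by rw [h.z_comm q0 hq0]; group
  obtain ⟨x, hxs, hxz⟩ := h.exists_transvection hCQ hnorm hs_def hsQ hsz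
  have hxinv_z : x⁻¹ * z * x = z * s := by
    have h1 : x * (z * s) * x⁻¹ = z := by
      calc x * (z * s) * x⁻¹ = (x * z * x⁻¹) * (x * s * x⁻¹) := by group
        _ = z * (s * s) := by rw [hxz, hxs]; group
        _ = z := by rw [hss, mul_one]
    calc x⁻¹ * z * x = x⁻¹ * (x * (z * s) * x⁻¹) * x := by rw [h1]
      _ = z * s := by group
  have hxinv_s : x⁻¹ * s * x = s := by
    calc x⁻¹ * s * x = x⁻¹ * (x * s * x⁻¹) * x := by rw [hxs]
      _ = s := by group
  obtain ⟨n, hn_def⟩ : ∃ n, n = x * q0 * x⁻¹ := ⟨_, rfl⟩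
  have hnz : n * z * n⁻¹ = s := by
    rw [hn_def]
    calc x * q0 * x⁻¹ * z * (x * q0 * x⁻¹)⁻¹ = x * (q0 * (x⁻¹ * z * x) * q0⁻¹) * x⁻¹ := by group
      _ = x * ((q0 * z * q0⁻¹) * (q0 * s * q0⁻¹)) * x⁻¹ := by rw [hxinv_z]; group
      _ = x * ((z * z) * s) * x⁻¹ := by rw [hq0z, hq0s]; group
      _ = s := by rw [h.z_sq, one_mul, hxs]
  have hns : n * s * n⁻¹ = z := by
    rw [hn_def]
    calc x * q0 * x⁻¹ * s * (x * q0 * x⁻¹)⁻¹ = x * (q0 * (x⁻¹ * s * x) * q0⁻¹) * x⁻¹ := by group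
      _ = (x * z * x⁻¹) * (x * s * x⁻¹) := by rw [hxinv_s, hq0s]; group
      _ = z * (s * s) := by rw [hxz, hxs]; group
      _ = z := by rw [hss, mul_one]
  have hzQg : z ∈ Q.map (MulAut.conj g).toMonoidHom := by
    rw [mem_map_conj_iff]
    have h1 : (g⁻¹ * n) * z = z * (g⁻¹ * n) := by
      calc g⁻¹ * n * z = g⁻¹ * (n * z * n⁻¹) * n := by group
        _ = g⁻¹ * (g * z * g⁻¹) * n := by rw [hnz, hs_def]
        _ = z * (g⁻¹ * n) := by group
    have h3 := hnorm _ h1 s hsQ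
    have e : g⁻¹ * n * s * (g⁻¹ * n)⁻¹ = g⁻¹ * (n * s * n⁻¹) * g := by group
    rw [e, hns] at h3
    exact h3
  refine ⟨hzQg, ?_⟩
  obtain ⟨q1, hq1, hq1z⟩ := hconj.exists_conj hzQg h.z_sq h.z_ne hsz.symm
  have hq1s : q1 * s * q1⁻¹ = s := by rw [hconj.z_comm q1 hq1]; group
  have hzs : z * s = s * z := (h.z_comm s hsQ).symm
  have m0 : q0 ∈ Q ⊔ Q.map (MulAut.conj g).toMonoidHom := Subgroup.mem_sup_left hq0
  have m1 : q1 ∈ Q ⊔ Q.map (MulAut.conj g).toMonoidHom := Subgroup.mem_sup_right hq1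
  have hq1z' : q1 * z * q1⁻¹ = z * s := by rw [hq1z, hzs]
  -- action of q0 : z ↦ z, s ↦ zs ; of q1 : z ↦ zs, s ↦ s
  have a0zs : q0 * (z * s) * q0⁻¹ = s := by
    calc q0 * (z * s) * q0⁻¹ = (q0 * z * q0⁻¹) * (q0 * s * q0⁻¹) := by group
      _ = (z * z) * s := by rw [hq0z, hq0s]; group
      _ = s := by rw [h.z_sq, one_mul]
  have a1zs : q1 * (z * s) * q1⁻¹ = z := by
    calc q1 * (z * s) * q1⁻¹ = (q1 * z * q1⁻¹) * (q1 * s * q1⁻¹) := by group
      _ = z * (s * s) := by rw [hq1z', hq1s]; group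
      _ = z := by rw [hss, mul_one]
  intro u hu v hv hu1 hv1 huv
  have cu := closure_pair_cases h.z_sq hss hzs hu
  have cv := closure_pair_cases h.z_sq hss hzs hv
  rcases cu with cu | cu | cu | cu
  · exact absurd cu hu1
  · rcases cv with cv | cv | cv | cv
    · exact absurd cv hv1
    · exact absurd (cu.trans cv.symm) huv
    · rw [cu, cv]
      exact ⟨1, Subgroup.one_mem _, by simp, by simp⟩
    · rw [cu, cv]
      exact ⟨q0, m0, hq0z, hq0s⟩
  · rcases cv with cv | cv | cv | cv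
    · exact absurd cv hv1
    · -- z ↦ s, s ↦ z : q0 q1 q0
      rw [cu, cv]
      refine ⟨q0 * q1 * q0, Subgroup.mul_mem _ (Subgroup.mul_mem _ m0 m1) m0, ?_, ?_⟩
      · calc q0 * q1 * q0 * z * (q0 * q1 * q0)⁻¹
            = q0 * (q1 * (q0 * z * q0⁻¹) * q1⁻¹) * q0⁻¹ := by group
          _ = s := by rw [hq0z, hq1z', a0zs]
      · calc q0 * q1 * q0 * s * (q0 * q1 * q0)⁻¹
            = q0 * (q1 * (q0 * s * q0⁻¹) * q1⁻¹) * q0⁻¹ := by group
          _ = z := by rw [hq0s, a1zs, hq0z]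
    · exact absurd (cu.trans cv.symm) huv
    · -- z ↦ s, s ↦ zs : q0 q1
      rw [cu, cv]
      refine ⟨q0 * q1, Subgroup.mul_mem _ m0 m1, ?_, ?_⟩
      · calc q0 * q1 * z * (q0 * q1)⁻¹ = q0 * (q1 * z * q1⁻¹) * q0⁻¹ := by group
          _ = s := by rw [hq1z', a0zs]
      · calc q0 * q1 * s * (q0 * q1)⁻¹ = q0 * (q1 * s * q1⁻¹) * q0⁻¹ := by group
          _ = z * s := by rw [hq1s, hq0s]
  · rcases cv with cv | cv | cv | cv
    · exact absurd cv hv1
    · -- z ↦ zs, s ↦ z : q1 q0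
      rw [cu, cv]
      refine ⟨q1 * q0, Subgroup.mul_mem _ m1 m0, ?_, ?_⟩
      · calc q1 * q0 * z * (q1 * q0)⁻¹ = q1 * (q0 * z * q0⁻¹) * q1⁻¹ := by group
          _ = z * s := by rw [hq0z, hq1z']
      · calc q1 * q0 * s * (q1 * q0)⁻¹ = q1 * (q0 * s * q0⁻¹) * q1⁻¹ := by group
          _ = z := by rw [hq0s, a1zs]
    · rw [cu, cv]
      exact ⟨q1, m1, hq1z', hq1s⟩
    · exact absurd (cu.trans cv.symm) huv

end SES

end Cfsg.Agent.Lib.Helper90
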