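import Mathlib
import Cfsg.Agent.Lib.Helper90.Symp0
import Cfsg.Agent.Lib.Helper90.Symp2
import Cfsg.Agent.Lib.Helper29.FStar
import Cfsg.Agent.S1265

set_option autoImplicit false

namespace Cfsg.Agent.Lib.Helper90

open scoped commutatorElement IsMulCommutative

variable {G : Type*} [Group G]

/-- The structure `SES` for `F*(C_G(z))` of symplectic type and exponent four. -/
theorem ses_of_symplectic [Finite G] (z : G) (hz : orderOf z = 2)
    (hQ : Cfsg.IsOfSymplecticType
      ↥(Cfsg.generalizedFittingSubgroup ↥(Subgroup.centralizer ({z} : Set G))))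
    (h4 : ∀ q ∈ (Cfsg.generalizedFittingSubgroup ↥(Subgroup.centralizer ({z} : Set G))).map
      (Subgroup.centralizer ({z} : Set G)).subtype, q ^ 4 = 1) :
    SES ((Cfsg.generalizedFittingSubgroup ↥(Subgroup.centralizer ({z} : Set G))).map
      (Subgroup.centralizer ({z} : Set G)).subtype) z ∧
    (∀ c : G, (∀ q ∈ (Cfsg.generalizedFittingSubgroup ↥(Subgroup.centralizer ({z} : Set G))).map
      (Subgroup.centralizer ({z} : Set G)).subtype, c * q = q * c) →
        c ∈ (Cfsg.generalizedFittingSubgroup ↥(Subgroup.centralizer ({z} : Set G))).map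
      (Subgroup.centralizer ({z} : Set G)).subtype) ∧
    (∀ c : G, c * z = z * c →
      ∀ q ∈ (Cfsg.generalizedFittingSubgroup ↥(Subgroup.centralizer ({z} : Set G))).map
      (Subgroup.centralizer ({z} : Set G)).subtype, c * q * c⁻¹ ∈
        (Cfsg.generalizedFittingSubgroup ↥(Subgroup.centralizer ({z} : Set G))).map
      (Subgroup.centralizer ({z} : Set G)).subtype) := by
  obtain ⟨F, hF⟩ : ∃ F, F = Cfsg.generalizedFittingSubgroup
    ↥(Subgroup.centralizer ({z} : Set G)) := ⟨_, rfl⟩
  obtain ⟨Q, hQdef⟩ : ∃ Q, Q = F.map (Subgroup.centralizer ({z} : Set G)).subtype := ⟨_, rfl⟩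
  rw [← hF] at hQ h4 ⊢
  rw [← hQdef] at h4 ⊢
  have hz1 : z ≠ 1 := by
    intro h; rw [h, orderOf_one] at hz; omega
  have hzz : z * z = 1 := by
    rw [← pow_two, ← hz]; exact pow_orderOf_eq_one z
  have hzH : z ∈ Subgroup.centralizer ({z} : Set G) := Subgroup.mem_centralizer_singleton_iff.mpr rfl
  have hQH : Q ≤ Subgroup.centralizer ({z} : Set G) := by
    rw [hQdef]; exact Subgroup.map_subtype_le _
  have hzF : (⟨z, hzH⟩ : Subgroup.centralizer ({z} : Set G)) ∈ F := by
    rw [hF]
    apply Cfsg.Agent.Lib.Helper29.fittingSubgroup_le_generalizedFittingSubgroup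
    apply Cfsg.Agent.Lib.Helper29.center_le_fittingSubgroup
    rw [Subgroup.mem_center_iff]
    intro c
    ext
    exact Subgroup.mem_centralizer_singleton_iff.mp c.2
  have hzQ : z ∈ Q := by
    rw [hQdef]
    exact ⟨⟨z, hzH⟩, hzF, rfl⟩
  have hx4 : ∀ x : F, x ^ 4 = 1 := by
    intro x
    ext
    have := h4 (x : Subgroup.centralizer ({z} : Set G)) (by rw [hQdef]; exact ⟨x, x.2, rfl⟩)
    simpa using this
  have hcyc : IsCyclic (Subgroup.center F) := hQ.2 _ inferInstance inferInstance
  have hzc : (⟨⟨z, hzH⟩, hzF⟩ : F) ∈ Subgroup.center F := by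
    rw [Subgroup.mem_center_iff]
    intro c
    ext
    exact Subgroup.mem_centralizer_singleton_iff.mp (c : Subgroup.centralizer ({z} : Set G)).2
  have huniq : ∀ y : F, y ∈ Subgroup.center F → y * y = 1 → y = 1 ∨ y = ⟨⟨z, hzH⟩, hzF⟩ := by
    intro y hy hyy
    by_cases hy1 : y = 1
    · left; exact hy1
    · right
      apply cyclic_involution_unique' hcyc hy hzc hyy
      · ext; exact hzz
      · exact hy1
      · intro h
        apply hz1
        exact congrArg (fun w : F => ((w : Subgroup.centralizer ({z} : Set G)) : G)) h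
  refine ⟨⟨?_, hz1, hzQ, hzz, ?_, ?_, ?_⟩, ?_, ?_⟩
  · rw [hQdef]
    exact hQ.1.map _
  · intro q hq
    exact Subgroup.mem_centralizer_singleton_iff.mp (hQH hq)
  · intro y hy hyc hyy
    rw [hQdef] at hy
    obtain ⟨y', hy', rfl⟩ := hy
    have h1 : (⟨y', hy'⟩ : F) ∈ Subgroup.center F := by
      rw [Subgroup.mem_center_iff]
      intro c
      ext
      exact hyc _ (by rw [hQdef]; exact ⟨c, c.2, rfl⟩)
    rcases huniq ⟨y', hy'⟩ h1 (by ext; exact hyy) with h2 | h2
    · left
      exact congrArg (fun w : F => ((w : Subgroup.centralizer ({z} : Set G)) : G)) h2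
    · right
      exact congrArg (fun w : F => ((w : Subgroup.centralizer ({z} : Set G)) : G)) h2
  · intro x hx y hy
    rw [hQdef] at hx hy
    obtain ⟨x', hx', rfl⟩ := hx
    obtain ⟨y', hy', rfl⟩ := hy
    obtain ⟨h1, h2⟩ := symp_comm hQ.1 hQ.2 hx4 (⟨x', hx'⟩ : F) ⟨y', hy'⟩
    rcases huniq _ h1 h2 with h3 | h3
    · left
      have h5 := congrArg (fun w : F => ((w : Subgroup.centralizer ({z} : Set G)) : G)) h3
      simp only [commutatorElement_def, Subgroup.coe_mul, InvMemClass.coe_inv,
        OneMemClass.coe_one] at h5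
      simp only [Subgroup.coe_subtype]
      calc (x' : G) * y' = ((x' : G) * y' * (x' : G)⁻¹ * (y' : G)⁻¹) * (y' * x') := by group
        _ = y' * x' := by rw [h5, one_mul]
    · right
      have h5 := congrArg (fun w : F => ((w : Subgroup.centralizer ({z} : Set G)) : G)) h3
      simp only [commutatorElement_def, Subgroup.coe_mul, InvMemClass.coe_inv] at h5
      simp only [Subgroup.coe_subtype]
      calc (x' : G) * y' = ((x' : G) * y' * (x' : G)⁻¹ * (y' : G)⁻¹) * (y' * x') := by group
        _ = z * (y' * x') := by rw [h5]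
  · intro c hc
    have hcz : c ∈ Subgroup.centralizer ({z} : Set G) := by
      rw [Subgroup.mem_centralizer_singleton_iff]
      exact hc z hzQ
    have h1 : (⟨c, hcz⟩ : Subgroup.centralizer ({z} : Set G)) ∈ Subgroup.centralizer
        (Cfsg.generalizedFittingSubgroup ↥(Subgroup.centralizer ({z} : Set G)) : Set _) := by
      rw [Subgroup.mem_centralizer_iff]
      intro y hy
      ext
      have hyQ : (y : G) ∈ Q := by rw [hQdef, hF]; exact ⟨y, hy, rfl⟩
      exact (hc _ hyQ).symm
    have h2 := Cfsg.Agent.S1265.result h1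
    rw [hQdef, hF]; exact ⟨_, h2, rfl⟩
  · intro c hc q hq
    have hcz : c ∈ Subgroup.centralizer ({z} : Set G) :=
      Subgroup.mem_centralizer_singleton_iff.mpr hc
    have hn := Cfsg.Agent.Lib.Helper29.generalizedFittingSubgroup_normal
      ↥(Subgroup.centralizer ({z} : Set G))
    rw [hQdef, hF] at hq ⊢
    obtain ⟨y, hy, rfl⟩ := hq
    exact ⟨⟨c, hcz⟩ * y * ⟨c, hcz⟩⁻¹, hn.conj_mem y hy _, by simp⟩

end Cfsg.Agent.Lib.Helper90
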